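import Cfsg.Agent.Lib.Schur.PcBase

/-! The check of the levels of a lower bound of the order, one level at a time. -/

set_option autoImplicit false

namespace Cfsg.Agent.Lib.Schur.PcLevSplit

open Cfsg.Agent.Lib.TC.Perm Cfsg.Agent.Lib.Schur.PcBase Cfsg.Agent.Lib.PermComp.Core

theorem chkLev_cons {P : PT} {wE : List (List Nat)} {prev : List Nat} {t : Nat × List (List Nat)}
    {ls : List (Nat × List (List Nat))} (h1 : chkLev P wE prev [t] = true)
    (h2 : chkLev P wE (t.1 :: prev) ls = true) : chkLev P wE prev (t :: ls) = true := by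
  simp only [chkLev, ifB_eq_true] at h1 ⊢
  exact ⟨h1.1, h1.2.1, h1.2.2.1, h2⟩

end Cfsg.Agent.Lib.Schur.PcLevSplit
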