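import Cfsg.Agent.Lib.Schur.PcMain

/-!
# The check of a tail certificate, in parts

The check of a certificate is cut into many small evaluations, one for each fusion relation and each target.
-/

set_option autoImplicit false

namespace Cfsg.Agent.Lib.Schur.PcSplit

open Cfsg.Agent.Lib.Schur.PcMain Cfsg.Agent.Lib.Schur.PcCert

/-- The next set of vanishing tails. -/
def nextS (S : List ℕ) (t : ℕ × ℤ × List (ℕ × ℤ)) : List ℕ := if t.2.1 = 0 then t.1 :: S else S

theorem rt_nil (c : Cert) (S : List ℕ) : c.runTargets S [] = true := by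
  simp [Cert.runTargets]

theorem rt_step {c : Cert} {S S' : List ℕ} {t : ℕ × ℤ × List (ℕ × ℤ)} {rest : List (ℕ × ℤ × List (ℕ × ℤ))}
    (h : decide ((c.combo t.2.2).filter (fun q => !(S.contains q.1)) = normS [(t.1, (1 : ℤ)), (c.k0, t.2.1)]) = true)
    (hS : nextS S t = S') (hr : c.runTargets S' rest = true) : c.runTargets S (t :: rest) = true := by
  rw [Cert.runTargets, Bool.and_eq_true]
  refine ⟨h, ?_⟩
  rw [nextS] at hS
  rw [hS]
  exact hr

theorem targets_of_parts {c : Cert} (h1 : c.runTargets [] c.targets = true)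
    (h2 : decide (c.combo c.zcomb = normS [(c.k0, (c.zm : ℤ))]) = true)
    (h3 : ((List.range c.n).all fun j =>
      (decide (j < c.r) || decide (tidx j j ∈ c.targets.map (·.1))) &&
      (List.range j).all fun i => decide (tidx j i ∈ c.targets.map (·.1))) = true) :
    c.chkTargets = true := by
  rw [Cert.chkTargets, Bool.and_eq_true, Bool.and_eq_true]
  exact ⟨⟨h1, h2⟩, h3⟩

theorem frs_of_parts {c : Cert} (h : ∀ q ∈ c.frs,
    decide (fusVec c.sys c.fuel (c.lett q.1) (c.letb q.1) (Cert.foff q.1) q.2.1 q.2.2.1 = some q.2.2.2) = true) :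
    c.chkFrs = true := by
  rw [Cert.chkFrs, List.all_eq_true]
  exact h

theorem check_of_parts {c : Cert} (h1 : c.chkTable = true) (h2 : c.chkDefs = true) (h3 : c.chkOvs = true)
    (h4 : c.chkFrs = true) (h5 : c.chkTargets = true) : c.check = true := by
  simp only [Cert.check, h1, h2, h3, h4, h5, Bool.and_self]

end Cfsg.Agent.Lib.Schur.PcSplit
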