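import Cfsg.Agent.Lib.Schur.CoverP
import Cfsg.Agent.Lib.Schur.Transport
import Cfsg.Agent.Lib.TC.Main

/-!
# Codes of elements of a group containing the letters of a table of permutations
-/

set_option autoImplicit false

namespace Cfsg.Agent.Lib.Schur.CoverP

open Cfsg Subgroup
open Cfsg.Agent.Lib.TC.Core Cfsg.Agent.Lib.TC.Perm
open Cfsg.Agent.Lib.PermComp.Core (app allL allL_eq_true Rep ifB ifB_eq_true)
open Cfsg.Agent.Lib.PermComp.Kron (rangeAll rangeAll_spec)

/-- A code is the word `t.2`, in all points. -/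
noncomputable def codeOK (P : PT) (w mask : Nat) (t : Nat × List Nat) : Bool :=
  rangeAll (fun p => P.walk (fun y => Nat.beq (app w mask t.1 p) y) t.2 p) (nat_lit 0) P.n

/-- Words in the letters give elements of a group containing the letters. -/
theorem exists_of_word {P : PT} {kk : Nat} (H : Subgroup (Equiv.Perm (Fin P.n)))
    (hgen : ∀ c < kk, ∃ e ∈ H, ∀ (p : Nat) (hp : p < P.n), P.T c p = (e ⟨p, hp⟩ : Fin P.n)) (l : List Nat)
    (hl : ∀ c ∈ l, c < kk) :
    ∃ g ∈ H, ∀ (p : Nat) (hp : p < P.n), P.val l p = (g ⟨p, hp⟩ : Fin P.n) := by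
  induction l with
  | nil =>
    exact ⟨1, one_mem _, fun p hp => rfl⟩
  | cons c l ih =>
    obtain ⟨g, hg, hg'⟩ := ih (fun d hd => hl d (by simp [hd]))
    obtain ⟨e, he, he'⟩ := hgen c (hl c (by simp))
    refine ⟨g * e, mul_mem hg he, fun p hp => ?_⟩
    have h1 : P.val (c :: l) p = P.val l (P.T c p) := rfl
    rw [h1, he' p hp]
    rw [hg' _ (e ⟨p, hp⟩).2]
    rfl

/-- A code checked against a word is the code of an element of the group. -/
theorem exists_rep_of_codeOK {P : PT} {kk w mask : Nat} (H : Subgroup (Equiv.Perm (Fin P.n)))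
    (hgen : ∀ c < kk, ∃ e ∈ H, ∀ (p : Nat) (hp : p < P.n), P.T c p = (e ⟨p, hp⟩ : Fin P.n))
    {t : Nat × List Nat} (hl : ∀ c ∈ t.2, c < kk) (h : codeOK P w mask t = true) :
    ∃ g ∈ H, Rep w mask (Equiv.refl (Fin P.n)) t.1 g := by
  obtain ⟨g, hg, hg'⟩ := exists_of_word H hgen t.2 hl
  refine ⟨g, hg, fun a => ?_⟩
  have h1 := rangeAll_spec h a.1 (Nat.zero_le _) (by simpa using a.2)
  rw [PT.walk_eq] at h1
  have h2 := Nat.eq_of_beq_eq_true h1
  show app w mask t.1 a.1 = _
  rw [h2, hg' a.1 a.2]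
  rfl

/-- Chunks of length `s` and a remainder. -/
theorem forall_of_chunks_rem {p : Nat → Bool} {s c r n : Nat} (hs : 0 < s)
    (h : ∀ i < c, rangeAll p (i * s) s = true) (hr : rangeAll p (c * s) r = true) (hn : n ≤ c * s + r) :
    ∀ x < n, p x = true := by
  intro x hx
  by_cases hx' : x < c * s
  · exact Cfsg.Agent.Lib.PermComp.Kron.forall_of_chunks hs h le_rfl x hx'
  · exact rangeAll_spec hr x (by omega) (by omega)

/-- A decidable way to give the entries of a table of relators. -/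
theorem rj_of_any {RJ : List (List Nat × Nat)} {l : List Nat} (h : RJ.any (fun t => t.1 == l) = true) :
    ∃ j, (l, j) ∈ RJ := by
  obtain ⟨t, ht, h1⟩ := List.any_eq_true.1 h
  have h2 : t.1 = l := by simpa using h1
  exact ⟨t.2, by rw [← h2]; exact ht⟩

end Cfsg.Agent.Lib.Schur.CoverP
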