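import Cfsg.Agent.Lib.TC.Iso
import Cfsg.Agent.Lib.Schur.Stem
import Cfsg.Agent.Lib.PermComp.Kron2

/-!
# Central covers of presented simple groups from monomial tables

Let `R` be a set of relators with `PresentedGroup R` simple, and suppose that permutations `F c` of a finite
set, one for each column `c` of a table of letters, commute with a permutation `z` and satisfy all the relators
up to powers of `z`.  If `z` is a product of commutators, the group generated by the `F c` and `z` is a stem
extension of the presented group with kernel generated by `z`.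

The permutations are monomial, on `Fin M × ZMod k`, given by tables of numbers `y * k + s`, and the relators are
checked point by point on `Fin M`, without any stabilizer chain.
-/

set_option autoImplicit false

namespace Cfsg.Agent.Lib.Schur.CoverP

open Cfsg Subgroup
open Cfsg.Agent.Lib.TC.Core Cfsg.Agent.Lib.TC.Pres Cfsg.Agent.Lib.TC.Iso
open Cfsg.Agent.Lib.PermComp.Core (ifB ifB_eq_true allL allL_eq_true)
open scoped commutatorElement

section Abstract

variable {α : Type*} {K : Cols α} {R : Set (FreeGroup α)} {rels : List (List Nat)}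

/-- The group generated by the letters and `z`. -/
def gpE {Ω : Type*} (kk : Nat) (F : Nat → Equiv.Perm Ω) (z : Equiv.Perm Ω) : Subgroup (Equiv.Perm Ω) :=
  closure ((F '' {c | c < kk}) ∪ {z})

/-- The main abstract theorem. -/
theorem exists_stem_of_letters (hK : K.Valid (R := R))
    (hR : ∀ r ∈ R, ∃ L, r = FreeGroup.mk L ∧ ∃ j, rotN (K.word L) j ∈ rels)
    (hs : IsSimpleGroup (PresentedGroup R)) {Ω : Type} [Finite Ω] (F : Nat → Equiv.Perm Ω) (z : Equiv.Perm Ω)
    (hzc : ∀ c < K.k, Commute z (F c))
    (hinv : ∀ c < K.k, F (K.inv c) * F c ∈ zpowers z)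
    (hrelk : ∀ l ∈ rels, ∀ c ∈ l, c < K.k)
    (hrel : ∀ l ∈ rels, prodA F l ∈ zpowers z)
    (hz1 : z ≠ 1)
    (hcomm : ∀ hz : z ∈ gpE K.k F z, (⟨z, hz⟩ : gpE K.k F z) ∈ commutator (gpE K.k F z)) :
    ∃ (Γ : Type) (_ : Group Γ) (_ : Finite Γ) (σ : Γ →* PresentedGroup R),
      IsStemExtension σ ∧ Nat.card σ.ker = orderOf z := by
  classical
  set E : Subgroup (Equiv.Perm Ω) := gpE K.k F z with hE
  have hzE : z ∈ E := subset_closure (Or.inr rfl)
  have hFE : ∀ c < K.k, F c ∈ E := fun c hc => subset_closure (Or.inl ⟨c, hc, rfl⟩)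
  let z' : E := ⟨z, hzE⟩
  have hzcent : ∀ y ∈ E, Commute z y := by
    intro y hy
    induction hy using Subgroup.closure_induction with
    | mem x hx =>
      rcases hx with ⟨c, hc, rfl⟩ | rfl
      · exact hzc c hc
      · exact Commute.refl _
    | one => exact Commute.one_right _
    | mul x y _ _ hx hy => exact hx.mul_right hy
    | inv x _ hx => exact hx.inv_right
  have hz'cent : z' ∈ center E := by
    rw [mem_center_iff]
    intro y
    apply Subtype.ext
    exact (hzcent y.1 y.2).symm.eq
  set N : Subgroup E := zpowers z' with hN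
  have hNcent : N ≤ center E := by
    rw [hN, zpowers_le]
    exact hz'cent
  have hNnormal : N.Normal := by
    refine ⟨fun n hn g => ?_⟩
    have h1 := hNcent hn
    rw [mem_center_iff] at h1
    rw [h1 g, mul_assoc, mul_inv_cancel, mul_one]
    exact hn
  let Q := E ⧸ N
  let Fe : Nat → E := fun c => if h : c < K.k then ⟨F c, hFE c h⟩ else 1
  have hFe : ∀ c, c < K.k → ((Fe c : E) : Equiv.Perm Ω) = F c := by
    intro c hc
    show ((if h : c < K.k then (⟨F c, hFE c h⟩ : E) else 1 : E) : Equiv.Perm Ω) = F c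
    rw [dif_pos hc]
  let G : Nat → Q := fun c => QuotientGroup.mk (Fe c)
  have hzmem : ∀ y : E, (y : Equiv.Perm Ω) ∈ zpowers z → y ∈ N := by
    intro y hy
    obtain ⟨n, hn⟩ := hy
    refine ⟨n, ?_⟩
    apply Subtype.ext
    simpa using hn
  have hprod : ∀ l : List Nat, (∀ c ∈ l, c < K.k) →
      ((prodA Fe l : E) : Equiv.Perm Ω) = prodA F l := by
    intro l hl
    induction l with
    | nil => rfl
    | cons c l ih =>
      rw [prodA_cons, prodA_cons, Subgroup.coe_mul, ih (fun y hy => hl y (by simp [hy])),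
        hFe c (hl c (by simp))]
  have hprodG : ∀ l : List Nat, prodA G l = QuotientGroup.mk (prodA Fe l) := by
    intro l
    induction l with
    | nil => rfl
    | cons c l ih =>
      rw [prodA_cons, prodA_cons, ih]
      rfl
  obtain ⟨ψ, hψ⟩ := exists_hom_of_letters hK hR (rels := rels) G
    (by
      intro c hc
      have h1 : (Fe (K.inv c) * Fe c : E) ∈ N := by
        apply hzmem
        rw [Subgroup.coe_mul, hFe _ (hK.inv_lt c hc), hFe c hc]
        exact hinv c hc
      have h2 : (G (K.inv c) * G c : Q) = 1 := by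
        show ((QuotientGroup.mk (Fe (K.inv c) * Fe c) : Q)) = 1
        rwa [QuotientGroup.eq_one_iff]
      exact eq_inv_of_mul_eq_one_left h2)
    (by
      intro l hl
      rw [hprodG, QuotientGroup.eq_one_iff]
      apply hzmem
      rw [hprod l (hrelk l hl)]
      exact hrel l hl)
  -- surjective
  have hsurj : Function.Surjective ψ := by
    have hcl : E ≤ (ψ.range.comap (QuotientGroup.mk' N)).map E.subtype := by
      apply (Subgroup.closure_le _).2
      rintro x (⟨c, hc, rfl⟩ | rfl)
      · refine ⟨Fe c, ?_, hFe c hc⟩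
        exact ⟨K.E R c, hψ c hc⟩
      · refine ⟨z', ?_, rfl⟩
        refine ⟨1, ?_⟩
        rw [map_one]
        symm
        show ((QuotientGroup.mk z' : Q)) = 1
        rw [QuotientGroup.eq_one_iff]
        exact mem_zpowers z'
    intro q
    obtain ⟨y, rfl⟩ := QuotientGroup.mk_surjective q
    obtain ⟨y', hy', hyy⟩ := hcl y.2
    have : y' = y := Subtype.ext hyy
    subst this
    exact hy'
  -- injective
  have hz'comm : z' ∈ commutator E := hcomm hzE
  have hinj : Function.Injective ψ := by
    have h1 : ψ.ker = ⊥ ∨ ψ.ker = ⊤ := hs.eq_bot_or_eq_top_of_normal _ inferInstance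
    rcases h1 with h1 | h1
    · exact (MonoidHom.ker_eq_bot_iff ψ).1 h1
    · exfalso
      -- the quotient is trivial, hence `E` is abelian
      have hQ : ∀ y : E, y ∈ N := by
        intro y
        obtain ⟨x, hx⟩ := hsurj (QuotientGroup.mk y)
        have h2 : x ∈ ψ.ker := by rw [h1]; exact mem_top _
        rw [MonoidHom.mem_ker] at h2
        rw [h2] at hx
        exact (QuotientGroup.eq_one_iff y).1 hx.symm
      have hcomm0 : commutator E = ⊥ := by
        rw [eq_bot_iff, _root_.commutator_def, Subgroup.commutator_le]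
        rintro a _ b _
        rw [Subgroup.mem_bot, commutatorElement_eq_one_iff_commute]
        have h3 := hNcent (hQ a)
        rw [mem_center_iff] at h3
        exact (h3 b).symm
      rw [hcomm0, Subgroup.mem_bot] at hz'comm
      exact hz1 (congrArg Subtype.val hz'comm)
  let e : PresentedGroup R ≃* Q := MulEquiv.ofBijective ψ ⟨hinj, hsurj⟩
  let σ : E →* PresentedGroup R := e.symm.toMonoidHom.comp (QuotientGroup.mk' N)
  have hker : ∀ y : E, y ∈ σ.ker ↔ y ∈ N := by
    intro y
    rw [MonoidHom.mem_ker]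
    show e.symm (QuotientGroup.mk y) = 1 ↔ _
    rw [EmbeddingLike.map_eq_one_iff]
    exact QuotientGroup.eq_one_iff y
  refine ⟨E, inferInstance, inferInstance, σ, ⟨?_, ?_, ?_⟩, ?_⟩
  · intro x
    obtain ⟨y, hy⟩ := QuotientGroup.mk_surjective (e x)
    refine ⟨y, ?_⟩
    show e.symm (QuotientGroup.mk y) = x
    rw [hy]
    exact e.symm_apply_apply x
  · intro y hy
    exact hNcent ((hker y).1 hy)
  · intro y hy
    have h3 := (hker y).1 hy
    have h4 : N ≤ commutator E := by
      rw [hN, zpowers_le]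
      exact hz'comm
    exact h4 h3
  · have h5 : Nat.card σ.ker = Nat.card N := by
      apply Nat.card_congr
      exact Equiv.subtypeEquivRight hker
    rw [h5, hN, Nat.card_zpowers]
    have h6 : orderOf z' = orderOf z := by
      exact Subgroup.orderOf_mk z hzE
    exact h6

/-- The product of the letters to the powers given by a vector, in an abelianization. -/
noncomputable def valV {A : Type*} [CommGroup A] (kk : Nat) (f : Nat → A) (v : Nat → ℤ) : A :=
  ∏ c ∈ Finset.range kk, f c ^ v c

lemma valV_add {A : Type*} [CommGroup A] (kk : Nat) (f : Nat → A) (v w : Nat → ℤ) :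
    valV kk f (v + w) = valV kk f v * valV kk f w := by
  simp only [valV, Pi.add_apply, zpow_add, Finset.prod_mul_distrib]

lemma valV_smul {A : Type*} [CommGroup A] (kk : Nat) (f : Nat → A) (a : ℤ) (v : Nat → ℤ) :
    valV kk f (fun c => a * v c) = valV kk f v ^ a := by
  simp only [valV, ← Finset.prod_zpow]
  refine Finset.prod_congr rfl fun c _ => ?_
  rw [mul_comm, zpow_mul]

/-- The vector of letters of a word. -/
def cntV (l : List Nat) : Nat → ℤ := fun c => (l.count c : ℤ)

lemma valV_prodA {A : Type*} [CommGroup A] (kk : Nat) (f : Nat → A) (l : List Nat) (hl : ∀ c ∈ l, c < kk) :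
    prodA f l = valV kk f (cntV l) := by
  induction l with
  | nil => simp [valV, cntV]
  | cons c l ih =>
    have h1 : cntV (c :: l) = cntV l + fun d => if d = c then (1 : ℤ) else 0 := by
      funext d
      simp only [cntV, List.count_cons, Pi.add_apply, beq_iff_eq]
      by_cases h : c = d
      · subst h
        simp
      · have h' : d ≠ c := fun e => h e.symm
        simp [h, h']
    rw [prodA_cons, ih (fun d hd => hl d (by simp [hd])), h1, valV_add]
    congr 1
    rw [valV, Finset.prod_eq_single c]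
    · simp
    · intro d _ hd
      simp [hd]
    · intro hc
      exact absurd (Finset.mem_range.2 (hl c (by simp))) hc

/-- The check of a combination of relators: the letters cancel. -/
def comboOK (kk : Nat) (rows : List (List Nat × Nat × ℤ)) : Bool :=
  (List.range kk).all fun c => decide ((rows.map fun t => t.2.2 * (t.1.count c : ℤ)).sum = 0)

/-- The exponent of a combination of relators. -/
def comboE (rows : List (List Nat × Nat × ℤ)) : ℤ :=
  (rows.map fun t => t.2.2 * (t.2.1 : ℤ)).sum

lemma combo_val {A : Type*} [CommGroup A] (kk : Nat) (f : Nat → A) (z : A) (rows : List (List Nat × Nat × ℤ))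
    (hrows : ∀ t ∈ rows, (∀ c ∈ t.1, c < kk) ∧ prodA f t.1 = z ^ t.2.1) :
    z ^ comboE rows = valV kk f (fun c => (rows.map fun t => t.2.2 * (t.1.count c : ℤ)).sum) := by
  induction rows with
  | nil => simp [comboE, valV]
  | cons t rows ih =>
    obtain ⟨h1, h2⟩ := hrows t (by simp)
    have h3 : (fun c => ((t :: rows).map fun t => t.2.2 * (t.1.count c : ℤ)).sum) =
        (fun c => t.2.2 * cntV t.1 c) + (fun c => (rows.map fun t => t.2.2 * (t.1.count c : ℤ)).sum) := by
      funext c
      simp only [List.map_cons, List.sum_cons, cntV, Pi.add_apply]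
    rw [h3, valV_add, valV_smul, ← valV_prodA kk f t.1 h1, h2, ← ih (fun u hu => hrows u (by simp [hu]))]
    have h4 : comboE (t :: rows) = t.2.2 * (t.2.1 : ℤ) + comboE rows := by simp [comboE]
    rw [h4, zpow_add, zpow_mul']
    simp

/-- `z` lies in the commutator subgroup, from a combination of relators in which the letters cancel. -/
theorem z_mem_commutator {Ω : Type*} {kk : Nat} {F : Nat → Equiv.Perm Ω} {z : Equiv.Perm Ω} {k : Nat}
    (hzk : z ^ k = 1) (rows : List (List Nat × Nat × ℤ))
    (hrows : ∀ t ∈ rows, (∀ c ∈ t.1, c < kk) ∧ prodA F t.1 = z ^ t.2.1)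
    (hok : comboOK kk rows = true) (hone : comboE rows % (k : ℤ) = 1 % (k : ℤ)) (hz : z ∈ gpE kk F z) :
    (⟨z, hz⟩ : gpE kk F z) ∈ commutator (gpE kk F z) := by
  classical
  set E := gpE kk F z
  let z' : E := ⟨z, hz⟩
  have hFE : ∀ c < kk, F c ∈ E := fun c hc => subset_closure (Or.inl ⟨c, hc, rfl⟩)
  let Fe : Nat → E := fun c => if h : c < kk then ⟨F c, hFE c h⟩ else 1
  have hFe : ∀ c, c < kk → ((Fe c : E) : Equiv.Perm Ω) = F c := by
    intro c hc
    show ((if h : c < kk then (⟨F c, hFE c h⟩ : E) else 1 : E) : Equiv.Perm Ω) = F c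
    rw [dif_pos hc]
  have hprod : ∀ l : List Nat, (∀ c ∈ l, c < kk) → ((prodA Fe l : E) : Equiv.Perm Ω) = prodA F l := by
    intro l hl
    induction l with
    | nil => rfl
    | cons c l ih =>
      rw [prodA_cons, prodA_cons, Subgroup.coe_mul, ih (fun y hy => hl y (by simp [hy])),
        hFe c (hl c (by simp))]
  let q : E →* Abelianization E := Abelianization.of
  have hmap : ∀ l : List Nat, q (prodA Fe l) = prodA (fun c => q (Fe c)) l := by
    intro l
    induction l with
    | nil => exact map_one q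
    | cons c l ih => rw [prodA_cons, prodA_cons, map_mul, ih]
  have hrows' : ∀ t ∈ rows, (∀ c ∈ t.1, c < kk) ∧
      prodA (fun c => q (Fe c)) t.1 = (q z') ^ t.2.1 := by
    intro t ht
    obtain ⟨h1, h2⟩ := hrows t ht
    refine ⟨h1, ?_⟩
    rw [← hmap, ← map_pow]
    congr 1
    apply Subtype.ext
    rw [hprod _ h1, h2]
    rfl
  have h3 := combo_val kk (fun c => q (Fe c)) (q z') rows hrows'
  have h4 : (fun c => (rows.map fun t => t.2.2 * (t.1.count c : ℤ)).sum) =ᶠ[Filter.principal (Set.Iio kk)] (fun _ => (0 : ℤ)) := by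
    filter_upwards [Filter.mem_principal_self _] with c hc
    have := (List.all_eq_true.1 hok) c (List.mem_range.2 hc)
    exact of_decide_eq_true this
  have h5 : valV kk (fun c => q (Fe c)) (fun c => (rows.map fun t => t.2.2 * (t.1.count c : ℤ)).sum) = 1 := by
    rw [valV]
    apply Finset.prod_eq_one
    intro c hc
    have h6 := (List.all_eq_true.1 hok) c (List.mem_range.2 (Finset.mem_range.1 hc))
    have h7 := of_decide_eq_true h6
    rw [h7, zpow_zero]
  rw [h5] at h3
  -- the exponent
  have hzk' : (q z') ^ (k : ℤ) = 1 := by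
    rw [zpow_natCast, ← map_pow]
    have : z' ^ k = 1 := by
      apply Subtype.ext
      exact hzk
    rw [this, map_one]
  have hE : (q z') ^ (comboE rows) = q z' ^ (1 : ℤ) := by
    have h8 : (k : ℤ) ∣ comboE rows - 1 := Int.ModEq.dvd (Int.ModEq.symm hone)
    obtain ⟨t, ht⟩ := h8
    have h9 : comboE rows = 1 + (k : ℤ) * t := by linarith
    rw [h9, zpow_add, zpow_mul, hzk', one_zpow, mul_one]
  rw [h3, zpow_one] at hE
  have h10 : z' ∈ q.ker := by
    rw [MonoidHom.mem_ker]
    exact hE.symm
  rw [Abelianization.ker_of] at h10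
  exact h10

end Abstract

section Mono

variable {M k : Nat} [NeZero k]

/-- A monomial permutation. -/
def mono (π : Equiv.Perm (Fin M)) (s : Fin M → ZMod k) : Equiv.Perm (Fin M × ZMod k) :=
  Equiv.prodShear π (fun x => Equiv.addRight (s x))

omit [NeZero k] in
@[simp] lemma mono_apply (π : Equiv.Perm (Fin M)) (s : Fin M → ZMod k) (x : Fin M) (a : ZMod k) :
    mono π s (x, a) = (π x, a + s x) := rfl

/-- The shift. -/
def shiftZ : Equiv.Perm (Fin M × ZMod k) := mono 1 (fun _ => 1)

omit [NeZero k] in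
lemma shiftZ_pow (n : Nat) (x : Fin M) (a : ZMod k) : ((shiftZ : Equiv.Perm (Fin M × ZMod k)) ^ n) (x, a) = (x, a + (n : ZMod k)) := by
  induction n with
  | zero => simp
  | succ n ih =>
    rw [pow_succ', Equiv.Perm.mul_apply, ih]
    show mono (k := k) 1 (fun _ => 1) (x, a + (n : ZMod k)) = _
    rw [mono_apply]
    simp [add_assoc]

omit [NeZero k] in
lemma shiftZ_commute (π : Equiv.Perm (Fin M)) (s : Fin M → ZMod k) :
    Commute (shiftZ : Equiv.Perm (Fin M × ZMod k)) (mono π s) := by
  show shiftZ * mono π s = mono π s * shiftZ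
  ext1 ⟨x, a⟩
  rw [Equiv.Perm.mul_apply, Equiv.Perm.mul_apply]
  show mono 1 (fun _ => 1) (mono π s (x, a)) = mono π s (mono 1 (fun _ => 1) (x, a))
  simp only [mono_apply, Equiv.Perm.coe_one, id_eq]
  congr 1
  ring

omit [NeZero k] in
lemma orderOf_shiftZ (hM : 0 < M) : orderOf (shiftZ : Equiv.Perm (Fin M × ZMod k)) = k := by
  apply Nat.dvd_antisymm
  · apply orderOf_dvd_of_pow_eq_one
    ext1 ⟨x, a⟩
    rw [shiftZ_pow]
    simp
  · have h1 := pow_orderOf_eq_one (shiftZ : Equiv.Perm (Fin M × ZMod k))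
    have h2 := congrArg (fun f => f ((⟨0, hM⟩ : Fin M), (0 : ZMod k))) h1
    simp only [shiftZ_pow, Equiv.Perm.coe_one, id_eq, Prod.mk.injEq, true_and, zero_add] at h2
    exact (ZMod.natCast_eq_zero_iff _ _).1 h2

variable (k)

/-- A walk along a word of columns, from the point `x` with accumulated value `acc`. -/
noncomputable def walkK (tb : Nat → Nat → Nat) (w : List Nat) : Nat → Nat → (Nat → Nat → Bool) → Bool :=
  List.rec (motive := fun _ => Nat → Nat → (Nat → Nat → Bool) → Bool)
    (fun x acc cont => cont x acc)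
    (fun c _ ih x acc cont =>
      force (tb c x) fun e => ih (Nat.div e k) (Nat.add acc (Nat.mod e k)) cont) w

/-- The relator `w` is `z ^ j` at the point `x`. -/
noncomputable def relAt (tb : Nat → Nat → Nat) (x : Nat) (t : List Nat × Nat) : Bool :=
  walkK k tb t.1 x 0 fun y acc => ifB (Nat.beq y x) (Nat.beq (Nat.mod acc k) t.2)

/-- The table gives a permutation at `x`. -/
noncomputable def permAt (M : Nat) (inv : Nat → Nat) (tb : Nat → Nat → Nat) (x c : Nat) : Bool :=
  force (Nat.div (tb c x) k) fun y => ifB (Nat.blt y M) (Nat.beq (Nat.div (tb (inv c) y) k) x)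

/-- All the checks at the point `x`. -/
noncomputable def chkAt (M KK : Nat) (inv : Nat → Nat) (tb : Nat → Nat → Nat) (RJ : List (List Nat × Nat))
    (x : Nat) : Bool :=
  ifB (allL (permAt k M inv tb x) (List.range KK)) (allL (relAt k tb x) RJ)

variable {k}

/-- The monomial permutation of a column. -/
def Fm (tb : Nat → Nat → Nat) (p : Nat → Equiv.Perm (Fin M)) (c : Nat) : Equiv.Perm (Fin M × ZMod k) :=
  mono (p c) (fun x => ((tb c x % k : Nat) : ZMod k))

omit [NeZero k] in
lemma walk_spec {KK : Nat} {tb : Nat → Nat → Nat} {p : Nat → Equiv.Perm (Fin M)}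
    (hp : ∀ c < KK, ∀ x : Fin M, ((p c x : Fin M) : Nat) = tb c x / k) (w : List Nat) (hw : ∀ c ∈ w, c < KK)
    (x : Fin M) :
    ∃ (y : Fin M) (t : Nat), (∀ a, prodA (Fm (k := k) tb p) w (x, a) = (y, a + t)) ∧
      ∀ acc cont, walkK k tb w x acc cont = cont y (acc + t) := by
  induction w generalizing x with
  | nil =>
    refine ⟨x, 0, fun a => ?_, fun acc cont => ?_⟩
    · simp
    · rfl
  | cons c w ih =>
    obtain ⟨y, t, h1, h2⟩ := ih (fun d hd => hw d (by simp [hd])) (p c x)
    refine ⟨y, tb c x % k + t, fun a => ?_, fun acc cont => ?_⟩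
    · rw [prodA_cons, Equiv.Perm.mul_apply]
      show prodA (Fm (k := k) tb p) w (p c x, a + ((tb c x % k : Nat) : ZMod k)) = _
      rw [h1]
      congr 1
      push_cast
      ring
    · have h3 : walkK k tb (c :: w) x acc cont = force (tb c x) fun e =>
          walkK k tb w (Nat.div e k) (Nat.add acc (Nat.mod e k)) cont := rfl
      rw [h3]
      simp only [force_eq]
      have h4 : Nat.div (tb c x) k = ((p c x : Fin M) : Nat) := (hp c (hw c (by simp)) x).symm
      rw [h4, h2]
      congr 1
      show acc + tb c x % k + t = _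
      ring

omit [NeZero k] in
/-- A relation on all points is an equality of permutations. -/
lemma prodA_eq_of_relAt {KK : Nat} {tb : Nat → Nat → Nat} {p : Nat → Equiv.Perm (Fin M)}
    (hp : ∀ c < KK, ∀ x : Fin M, ((p c x : Fin M) : Nat) = tb c x / k) (w : List Nat) (hw : ∀ c ∈ w, c < KK)
    (j : Nat) (h : ∀ x < M, relAt k tb x (w, j) = true) :
    prodA (Fm (k := k) tb p) w = (shiftZ : Equiv.Perm (Fin M × ZMod k)) ^ j := by
  ext1 ⟨x, a⟩
  obtain ⟨y, t, h1, h2⟩ := walk_spec hp w hw x
  rw [h1, shiftZ_pow]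
  have h3 := h x.1 x.2
  rw [relAt, h2, ifB_eq_true] at h3
  have h4 : (y : Nat) = x := Nat.eq_of_beq_eq_true h3.1
  have h5 : (0 + t) % k = j := Nat.eq_of_beq_eq_true h3.2
  have h6 : y = x := Fin.ext h4
  rw [h6]
  congr 2
  rw [← h5, zero_add, ZMod.natCast_mod]

/-- The main concrete theorem. -/
theorem exists_stem_of_tables {α : Type*} {K : Cols α} {R : Set (FreeGroup α)} {rels : List (List Nat)}
    (hK : K.Valid (R := R))
    (hR : ∀ r ∈ R, ∃ L, r = FreeGroup.mk L ∧ ∃ j, rotN (K.word L) j ∈ rels)
    (hs : IsSimpleGroup (PresentedGroup R)) (hM : 0 < M) (hk : 1 < k) (tb : Nat → Nat → Nat)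
    (RJ : List (List Nat × Nat)) (rows : List (List Nat × Nat × ℤ))
    (hcheck : ∀ x < M, chkAt k M K.k K.inv tb RJ x = true)
    (hrelk : ∀ l ∈ rels, ∀ c ∈ l, c < K.k)
    (hrels : ∀ l ∈ rels, ∃ j, (l, j) ∈ RJ)
    (hinvs : ∀ c < K.k, ∃ j, ([c, K.inv c], j) ∈ RJ)
    (hRJ : ∀ t ∈ RJ, ∀ c ∈ t.1, c < K.k)
    (hrowsRJ : ∀ t ∈ rows, (t.1, t.2.1) ∈ RJ)
    (hok : comboOK K.k rows = true)
    (hone : comboE rows % (k : ℤ) = 1 % (k : ℤ)) :
    ∃ (Γ : Type) (_ : Group Γ) (_ : Finite Γ) (σ : Γ →* PresentedGroup R),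
      IsStemExtension σ ∧ Nat.card σ.ker = k := by
  classical
  -- the permutations
  have hpa : ∀ c < K.k, ∀ x < M, allL (permAt k M K.inv tb x) (List.range K.k) = true := by
    intro c _ x hx
    have h := hcheck x hx
    rw [chkAt, ifB_eq_true] at h
    exact h.1
  have hpc : ∀ c < K.k, ∀ x < M, tb c x / k < M ∧ tb (K.inv c) (tb c x / k) / k = x := by
    intro c hc x hx
    have h := (allL_eq_true _ _).1 (hpa c hc x hx) c (List.mem_range.2 hc)
    rw [permAt, force_eq, ifB_eq_true] at h
    exact ⟨Nat.le_of_ble_eq_true h.1, Nat.eq_of_beq_eq_true h.2⟩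
  have hex : ∀ c, ∃ q : Equiv.Perm (Fin M), c < K.k → ∀ x : Fin M, ((q x : Fin M) : Nat) = tb c x / k := by
    intro c
    by_cases hc : c < K.k
    · let f : Fin M → Fin M := fun x => ⟨tb c x / k, (hpc c hc x.1 x.2).1⟩
      have hinj : Function.Injective f := by
        intro a b hab
        apply Fin.ext
        have h1 := (hpc c hc a.1 a.2).2
        have h2 := (hpc c hc b.1 b.2).2
        have h3 : tb c a / k = tb c b / k := congrArg Fin.val hab
        rw [← h1, ← h2, h3]
      refine ⟨Equiv.ofBijective f hinj.bijective_of_finite, fun _ x => rfl⟩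
    · exact ⟨1, fun h => absurd h hc⟩
  choose p hp using hex
  have hp' : ∀ c < K.k, ∀ x : Fin M, ((p c x : Fin M) : Nat) = tb c x / k := fun c hc => hp c hc
  set F : Nat → Equiv.Perm (Fin M × ZMod k) := Fm (k := k) tb p with hF
  have hrelAt : ∀ t ∈ RJ, ∀ x < M, relAt k tb x t = true := by
    intro t ht x hx
    have h := hcheck x hx
    rw [chkAt, ifB_eq_true] at h
    exact (allL_eq_true _ _).1 h.2 t ht
  have hz1 : (shiftZ : Equiv.Perm (Fin M × ZMod k)) ≠ 1 := by
    intro h
    have h1 := orderOf_shiftZ (k := k) hM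
    rw [h, orderOf_one] at h1
    omega
  have hzk : (shiftZ : Equiv.Perm (Fin M × ZMod k)) ^ k = 1 := by
    have h1 := pow_orderOf_eq_one (shiftZ : Equiv.Perm (Fin M × ZMod k))
    rwa [orderOf_shiftZ (k := k) hM] at h1
  have hstem := exists_stem_of_letters (K := K) (R := R) (rels := rels) hK hR hs F shiftZ
    (fun c _ => shiftZ_commute _ _)
    (by
      intro c hc
      obtain ⟨j, hj⟩ := hinvs c hc
      have h1 : prodA F [c, K.inv c] = shiftZ ^ j := by
        apply prodA_eq_of_relAt hp' [c, K.inv c] _ j (fun x hx => hrelAt _ hj x hx)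
        intro d hd
        simp only [List.mem_cons, List.not_mem_nil, or_false] at hd
        rcases hd with rfl | rfl
        · exact hc
        · exact hK.inv_lt c hc
      have h2 : F (K.inv c) * F c = prodA F [c, K.inv c] := by
        simp [prodA_cons]
      rw [h2, h1]
      exact pow_mem (mem_zpowers _) _)
    hrelk
    (by
      intro l hl
      obtain ⟨j, hj⟩ := hrels l hl
      rw [prodA_eq_of_relAt hp' l (hrelk l hl) j (fun x hx => hrelAt _ hj x hx)]
      exact pow_mem (mem_zpowers _) _)
    hz1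
    (by
      intro hz
      refine z_mem_commutator hzk _ ?_ hok hone hz
      intro t ht
      have hu := hrowsRJ t ht
      exact ⟨hRJ _ hu, prodA_eq_of_relAt hp' t.1 (hRJ _ hu) t.2.1 (fun x hx => hrelAt _ hu x hx)⟩)
  obtain ⟨Γ, i1, i2, σ, h1, h2⟩ := hstem
  refine ⟨Γ, i1, i2, σ, h1, ?_⟩
  rw [h2, orderOf_shiftZ hM]

end Mono

end Cfsg.Agent.Lib.Schur.CoverP
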