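import Cfsg.Agent.Lib.Schur.CoverP
import Cfsg.Agent.Lib.Schur.Stem

/-!
# Threefold covers of the derived subgroup of a group generated by odd letters

Let `G` be a group given by generators, with a sign which is `-1` on all the letters and whose kernel is the
derived subgroup `G'`, and suppose that `G'` is simple and not abelian.  If elements `F c` of a finite group invert
an element `z` of order 3 and satisfy the relators up to powers of `z`, and if they lie over the letters for a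
faithful representation of `G`, then the elements of the group they generate that commute with `z`
form a central extension of `G'`, which is a stem extension as soon as an integer combination of relators of
nonzero value has vanishing alternating letter counts.
-/

set_option autoImplicit false

namespace Cfsg.Agent.Lib.Schur.CoverTw

open Cfsg Subgroup
open Cfsg.Agent.Lib.TC.Core Cfsg.Agent.Lib.TC.Pres Cfsg.Agent.Lib.TC.Iso
open Cfsg.Agent.Lib.Schur.CoverP (valV valV_add valV_smul comboE shiftZ shiftZ_pow orderOf_shiftZ)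
open Cfsg.Agent.Lib.PermComp.Core (ifB ifB_eq_true allL allL_eq_true)
open Cfsg.Agent.Lib.TC.Perm
open scoped commutatorElement

/-- The alternating count of the letters of a word: positive on the places of even number. -/
def altV : List Nat → Nat → ℤ
  | [], _ => 0
  | [a], c => -(if c = a then 1 else 0)
  | a :: b :: l, c => (if c = b then 1 else 0) - (if c = a then 1 else 0) + altV l c

/-- The check of a combination of relators: the alternating counts cancel. -/
def comboTw (kk : Nat) (rows : List (List Nat × Nat × ℤ)) : Bool :=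
  (List.range kk).all fun c => decide ((rows.map fun t => t.2.2 * altV t.1 c).sum = 0)

lemma valV_single {A : Type*} [CommGroup A] (kk : Nat) (f : Nat → A) {b : Nat} (hb : b < kk) :
    valV kk f (fun c => if c = b then (1 : ℤ) else 0) = f b := by
  rw [valV, Finset.prod_eq_single b]
  · simp
  · intro d _ hd
    simp [hd]
  · intro hc
    exact absurd (Finset.mem_range.2 hb) hc

lemma combo_val_tw {A : Type*} [CommGroup A] (kk : Nat) (f : Nat → A) (z : A) (rows : List (List Nat × Nat × ℤ))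
    (hrows : ∀ t ∈ rows, z ^ t.2.1 = valV kk f (altV t.1)) :
    z ^ comboE rows = valV kk f (fun c => (rows.map fun t => t.2.2 * altV t.1 c).sum) := by
  induction rows with
  | nil => simp [comboE, valV]
  | cons t rows ih =>
    have h2 := hrows t (by simp)
    have h3 : (fun c => ((t :: rows).map fun t => t.2.2 * altV t.1 c).sum) =
        (fun c => t.2.2 * altV t.1 c) + (fun c => (rows.map fun t => t.2.2 * altV t.1 c).sum) := by
      funext c
      simp only [List.map_cons, List.sum_cons, Pi.add_apply]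
    rw [h3, valV_add, valV_smul, ← h2, ← ih (fun u hu => hrows u (by simp [hu]))]
    have h4 : comboE (t :: rows) = t.2.2 * (t.2.1 : ℤ) + comboE rows := by simp [comboE]
    rw [h4, zpow_add, zpow_mul']
    simp

/-- The group-theoretic core: the central element lies in the commutator subgroup. -/
theorem z_mem_commutator_tw {E : Type*} [Group E] (Γ₀ : Subgroup E) [Γ₀.Normal] {kk : Nat} (h0k : 0 < kk)
    (Fe : Nat → E) (hFF : ∀ c < kk, ∀ d < kk, Fe c * Fe d ∈ Γ₀) (h00 : Fe 0 * Fe 0 = 1)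
    (zz : Γ₀) (hzF : Fe 0 * (zz : E) * (Fe 0)⁻¹ = (zz : E)⁻¹)
    (hz3 : zz ^ 3 = 1)
    (hgen : ∀ y : Γ₀, ∃ i : ℤ, ∃ a ∈ commutator Γ₀, y = zz ^ i * a)
    (rows : List (List Nat × Nat × ℤ))
    (hrows : ∀ t ∈ rows, (∀ c ∈ t.1, c < kk) ∧ Even t.1.length ∧ prodA Fe t.1 = ((zz ^ t.2.1 : Γ₀) : E))
    (hok : comboTw kk rows = true) (hone : comboE rows % 3 = 1 % 3) :
    zz ∈ commutator Γ₀ := by
  classical
  let q : Γ₀ →* Abelianization Γ₀ := Abelianization.of
  let c0 : MulAut Γ₀ := MulAut.conjNormal (Fe 0)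
  have hc0 : ∀ y : Γ₀, ((c0 y : Γ₀) : E) = Fe 0 * y * (Fe 0)⁻¹ := fun y => MulAut.conjNormal_apply (Fe 0) y
  have hcz : c0 zz = zz⁻¹ := by
    apply Subtype.ext
    rw [hc0, hzF]
    rfl
  have hker : ∀ {A : Type _} [CommGroup A] (χ : Γ₀ →* A), ∀ a ∈ commutator Γ₀, χ a = 1 := by
    intro A _ χ a ha
    exact Abelianization.commutator_subset_ker χ ha
  have hinvq : ∀ y : Γ₀, q (c0 y) = (q y)⁻¹ := by
    intro y
    obtain ⟨i, a, ha, rfl⟩ := hgen y
    have h1 : q a = 1 := hker q a ha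
    have h2 : q (c0 a) = 1 := hker (q.comp c0.toMonoidHom) a ha
    rw [map_mul, map_mul, map_mul, h1, h2, map_zpow, map_zpow, hcz, map_inv]
    simp
  let u : Nat → Abelianization Γ₀ := fun c =>
    if h : c < kk then q ⟨Fe c * Fe 0, hFF c h 0 h0k⟩ else 1
  have hu : ∀ c (h : c < kk), u c = q ⟨Fe c * Fe 0, hFF c h 0 h0k⟩ := fun c h => dif_pos h
  have hpair : ∀ a b (ha : a < kk) (hb : b < kk),
      q ⟨Fe b * Fe a, hFF b hb a ha⟩ = u b * (u a)⁻¹ := by
    intro a b ha hb
    have h1 : (⟨Fe b * Fe a, hFF b hb a ha⟩ : Γ₀) =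
        ⟨Fe b * Fe 0, hFF b hb 0 h0k⟩ * c0 ⟨Fe a * Fe 0, hFF a ha 0 h0k⟩ := by
      apply Subtype.ext
      rw [Subgroup.coe_mul, hc0]
      show Fe b * Fe a = Fe b * Fe 0 * (Fe 0 * (Fe a * Fe 0) * (Fe 0)⁻¹)
      have h2 : Fe 0 * (Fe a * Fe 0) * (Fe 0)⁻¹ = Fe 0 * Fe a := by group
      rw [h2, mul_assoc, ← mul_assoc (Fe 0) (Fe 0), h00, one_mul]
    rw [h1, map_mul, hinvq, hu b hb, hu a ha]
  have hword : ∀ (n : Nat) (l : List Nat), l.length = 2 * n → (∀ c ∈ l, c < kk) →
      ∃ y : Γ₀, (y : E) = prodA Fe l ∧ q y = valV kk u (altV l) := by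
    intro n
    induction n with
    | zero =>
      intro l hl _
      have : l = [] := List.length_eq_zero_iff.1 (by omega)
      subst this
      exact ⟨1, rfl, by simp [valV, altV]⟩
    | succ n ih =>
      intro l hl hk
      match l, hl, hk with
      | a :: b :: l', hl, hk =>
        obtain ⟨y, hy1, hy2⟩ := ih l' (by simp at hl; omega) (fun c hc => hk c (by simp [hc]))
        have ha : a < kk := hk a (by simp)
        have hb : b < kk := hk b (by simp)
        refine ⟨y * ⟨Fe b * Fe a, hFF b hb a ha⟩, ?_, ?_⟩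
        · rw [Subgroup.coe_mul, hy1, prodA_cons, prodA_cons, mul_assoc]
        · rw [map_mul, hy2, hpair a b ha hb]
          have h1 : altV (a :: b :: l') = (fun c => if c = b then (1 : ℤ) else 0) +
              ((fun c => (-1 : ℤ) * (if c = a then (1 : ℤ) else 0)) + altV l') := by
            funext c
            simp only [altV, Pi.add_apply]
            ring
          rw [h1, valV_add, valV_add, valV_smul, valV_single kk u hb, valV_single kk u ha]
          simp only [zpow_neg_one]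
          rw [mul_comm, mul_assoc, mul_comm (u a)⁻¹]
  have hrows' : ∀ t ∈ rows, (q zz) ^ t.2.1 = valV kk u (altV t.1) := by
    intro t ht
    obtain ⟨h1, h2, h3⟩ := hrows t ht
    obtain ⟨n, hn⟩ := h2
    obtain ⟨y, hy1, hy2⟩ := hword n t.1 (by omega) h1
    rw [← hy2, ← map_pow]
    congr 1
    apply Subtype.ext
    rw [hy1, h3]
  have h3 := combo_val_tw kk u (q zz) rows hrows'
  have h5 : valV kk u (fun c => (rows.map fun t => t.2.2 * altV t.1 c).sum) = 1 := by
    rw [valV]
    apply Finset.prod_eq_one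
    intro c hc
    have h6 := (List.all_eq_true.1 hok) c (List.mem_range.2 (Finset.mem_range.1 hc))
    have h7 := of_decide_eq_true h6
    rw [h7, zpow_zero]
  rw [h5] at h3
  have hzk' : (q zz) ^ (3 : ℤ) = 1 := by
    have : (q zz) ^ (3 : ℕ) = 1 := by rw [← map_pow, hz3, map_one]
    exact_mod_cast this
  have hE : (q zz) ^ (comboE rows) = q zz ^ (1 : ℤ) := by
    have h8 : (3 : ℤ) ∣ comboE rows - 1 := Int.ModEq.dvd (Int.ModEq.symm hone)
    obtain ⟨t, ht⟩ := h8
    have h9 : comboE rows = 1 + 3 * t := by linarith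
    rw [h9, zpow_add, zpow_mul, hzk', one_zpow, mul_one]
  rw [h3, zpow_one] at hE
  have h10 : zz ∈ q.ker := by
    rw [MonoidHom.mem_ker]
    exact hE.symm
  rw [Abelianization.ker_of] at h10
  exact h10

section Abstract

variable {α : Type*} {K : Cols α} {R : Set (FreeGroup α)} {rels : List (List Nat)}

/-- The main abstract theorem. -/
theorem exists_stem_tw {W B : Type} [Group W] [Finite W] [Group B] (hK : K.Valid (R := R))
    (hR : ∀ r ∈ R, ∃ L, r = FreeGroup.mk L ∧ ∃ j, rotN (K.word L) j ∈ rels)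
    (hs : IsSimpleGroup (commutator (PresentedGroup R)))
    (hna : ¬ ∀ a b : commutator (PresentedGroup R), a * b = b * a)
    (s : PresentedGroup R →* ℤˣ) (hsE : ∀ c < K.k, s (K.E R c) = -1)
    (hsk : s.ker = commutator (PresentedGroup R))
    (F : Nat → W) (z : W) (π : W →* B) (φ : PresentedGroup R →* B) (hφ : Function.Injective φ)
    (hπz : π z = 1) (hπF : ∀ c < K.k, π (F c) = φ (K.E R c))
    (hz3 : z ^ 3 = 1) (hz1 : z ≠ 1)
    (hzF : ∀ c < K.k, F c * z * (F c)⁻¹ = z⁻¹)
    (h0k : 0 < K.k) (h00 : F 0 * F 0 = 1)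
    (hinv : ∀ c < K.k, F (K.inv c) * F c ∈ zpowers z)
    (hrelk : ∀ l ∈ rels, ∀ c ∈ l, c < K.k)
    (hrel : ∀ l ∈ rels, prodA F l ∈ zpowers z)
    (rows : List (List Nat × Nat × ℤ))
    (hrows : ∀ t ∈ rows, (∀ c ∈ t.1, c < K.k) ∧ Even t.1.length ∧ prodA F t.1 = z ^ t.2.1)
    (hok : comboTw K.k rows = true) (hone : comboE rows % 3 = 1 % 3) :
    ∃ (Γ : Type) (_ : Group Γ) (_ : Finite Γ) (σ : Γ →* commutator (PresentedGroup R)),
      IsStemExtension σ ∧ Nat.card σ.ker = 3 := by
  classical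
  set E : Subgroup W := closure ((F '' {c | c < K.k}) ∪ {z}) with hE
  have hzE : z ∈ E := subset_closure (Or.inr rfl)
  have hFE : ∀ c < K.k, F c ∈ E := fun c hc => subset_closure (Or.inl ⟨c, hc, rfl⟩)
  let z' : E := ⟨z, hzE⟩
  -- conjugates of `z`
  have hzconj : ∀ y ∈ E, y * z * y⁻¹ = z ∨ y * z * y⁻¹ = z⁻¹ := by
    intro y hy
    induction hy using Subgroup.closure_induction with
    | mem x hx =>
      rcases hx with ⟨c, hc, rfl⟩ | rfl
      · exact Or.inr (hzF c hc)
      · left; group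
    | one => left; group
    | mul x y _ _ hx hy =>
      have e1 : x * y * z * (x * y)⁻¹ = x * (y * z * y⁻¹) * x⁻¹ := by group
      have e2 : x * z⁻¹ * x⁻¹ = (x * z * x⁻¹)⁻¹ := by group
      rw [e1]
      rcases hy with hy | hy
      · rw [hy]; exact hx
      · rw [hy, e2]
        rcases hx with hx | hx
        · rw [hx]; exact Or.inr rfl
        · rw [hx, inv_inv]; exact Or.inl rfl
    | inv x _ hx =>
      rcases hx with hx | hx
      · left
        have e3 : x⁻¹ * z * x⁻¹⁻¹ = x⁻¹ * (x * z * x⁻¹) * x⁻¹⁻¹ := by rw [hx]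
        rw [e3]; group
      · right
        have e3 : x⁻¹ * z * x⁻¹⁻¹ = (x⁻¹ * z⁻¹ * x⁻¹⁻¹)⁻¹ := by group
        have e4 : x⁻¹ * z⁻¹ * x⁻¹⁻¹ = x⁻¹ * (x * z * x⁻¹) * x⁻¹⁻¹ := by rw [hx]
        rw [e3, e4]; group
  set N : Subgroup E := zpowers z' with hN
  have hNnormal : N.Normal := by
    refine ⟨fun n hn g => ?_⟩
    obtain ⟨i, rfl⟩ := hn
    have h1 : (g * z' * g⁻¹) ∈ N := by
      rcases hzconj g.1 g.2 with h | h
      · have : g * z' * g⁻¹ = z' := Subtype.ext h
        rw [this]; exact mem_zpowers z'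
      · have : g * z' * g⁻¹ = z'⁻¹ := Subtype.ext h
        rw [this]; exact inv_mem (mem_zpowers z')
    have h2 : g * z' ^ i * g⁻¹ = (g * z' * g⁻¹) ^ i := by
      rw [conj_zpow]
    show g * z' ^ i * g⁻¹ ∈ N
    rw [h2]
    exact zpow_mem h1 i
  let Q := E ⧸ N
  let Fe : Nat → E := fun c => if h : c < K.k then ⟨F c, hFE c h⟩ else 1
  have hFe : ∀ c, c < K.k → ((Fe c : E) : W) = F c := by
    intro c hc
    show ((if h : c < K.k then (⟨F c, hFE c h⟩ : E) else 1 : E) : W) = F c
    rw [dif_pos hc]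
  let G : Nat → Q := fun c => QuotientGroup.mk (Fe c)
  have hzmem : ∀ y : E, (y : W) ∈ zpowers z → y ∈ N := by
    intro y hy
    obtain ⟨n, hn⟩ := hy
    refine ⟨n, ?_⟩
    apply Subtype.ext
    simpa using hn
  have hprod : ∀ l : List Nat, (∀ c ∈ l, c < K.k) → ((prodA Fe l : E) : W) = prodA F l := by
    intro l hl
    induction l with
    | nil => rfl
    | cons c l ih =>
      rw [prodA_cons, prodA_cons, Subgroup.coe_mul, ih (fun y hy => hl y (by simp [hy])),
        hFe c (hl c (by simp))]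
  have hprodG : ∀ l : List Nat, prodA G l = QuotientGroup.mk (prodA Fe l) := by
    intro l
    induction l with
    | nil => rfl
    | cons c l ih =>
      rw [prodA_cons, prodA_cons, ih]
      rfl
  obtain ⟨ψ, hψ⟩ := exists_hom_of_letters hK hR (rels := rels) G
    (by
      intro c hc
      have h1 : (Fe (K.inv c) * Fe c : E) ∈ N := by
        apply hzmem
        rw [Subgroup.coe_mul, hFe _ (hK.inv_lt c hc), hFe c hc]
        exact hinv c hc
      have h2 : (G (K.inv c) * G c : Q) = 1 := by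
        show ((QuotientGroup.mk (Fe (K.inv c) * Fe c) : Q)) = 1
        rwa [QuotientGroup.eq_one_iff]
      exact eq_inv_of_mul_eq_one_left h2)
    (by
      intro l hl
      rw [hprodG, QuotientGroup.eq_one_iff]
      apply hzmem
      rw [hprod l (hrelk l hl)]
      exact hrel l hl)
  -- surjective
  have hsurj : Function.Surjective ψ := by
    have hcl : E ≤ (ψ.range.comap (QuotientGroup.mk' N)).map E.subtype := by
      apply (Subgroup.closure_le _).2
      rintro x (⟨c, hc, rfl⟩ | rfl)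
      · refine ⟨Fe c, ?_, hFe c hc⟩
        exact ⟨K.E R c, hψ c hc⟩
      · refine ⟨z', ?_, rfl⟩
        refine ⟨1, ?_⟩
        rw [map_one]
        symm
        show ((QuotientGroup.mk z' : Q)) = 1
        rw [QuotientGroup.eq_one_iff]
        exact mem_zpowers z'
    intro q
    obtain ⟨y, rfl⟩ := QuotientGroup.mk_surjective q
    obtain ⟨y', hy', hyy⟩ := hcl y.2
    have : y' = y := Subtype.ext hyy
    subst this
    exact hy'
  -- injective
  have hNπ : N ≤ (π.comp E.subtype).ker := by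
    rw [hN, zpowers_le, MonoidHom.mem_ker]
    exact hπz
  let πq : Q →* B := QuotientGroup.lift N (π.comp E.subtype) hNπ
  have hπq : πq.comp ψ = φ := by
    have h1 : (MonoidHom.eqLocus (πq.comp ψ) φ) = ⊤ := by
      rw [eq_top_iff, ← Cols.closure_E hK, Subgroup.closure_le]
      rintro _ ⟨c, hc, rfl⟩
      show πq (ψ (K.E R c)) = φ (K.E R c)
      rw [hψ c hc]
      show π ((Fe c : E) : W) = _
      rw [hFe c hc]
      exact hπF c hc
    refine MonoidHom.ext fun x => ?_
    have h2 : x ∈ MonoidHom.eqLocus (πq.comp ψ) φ := by rw [h1]; exact mem_top _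
    exact h2
  have hinj : Function.Injective ψ := by
    intro a b hab
    apply hφ
    rw [← hπq]
    show πq (ψ a) = πq (ψ b)
    rw [hab]
  let e : PresentedGroup R ≃* Q := MulEquiv.ofBijective ψ ⟨hinj, hsurj⟩
  let σ₁ : E →* PresentedGroup R := e.symm.toMonoidHom.comp (QuotientGroup.mk' N)
  have hσ₁ : ∀ y : E, e (σ₁ y) = QuotientGroup.mk y := fun y => e.apply_symm_apply _
  have hker₁ : ∀ y : E, σ₁ y = 1 ↔ y ∈ N := by
    intro y
    show e.symm (QuotientGroup.mk y) = 1 ↔ _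
    rw [EmbeddingLike.map_eq_one_iff]
    exact QuotientGroup.eq_one_iff y
  have hσ₁F : ∀ c (hc : c < K.k), σ₁ ⟨F c, hFE c hc⟩ = K.E R c := by
    intro c hc
    apply e.injective
    rw [hσ₁]
    show _ = ψ (K.E R c)
    rw [hψ c hc]
    show _ = QuotientGroup.mk (Fe c)
    congr 1
    exact Subtype.ext (hFe c hc).symm
  have hσ₁surj : Function.Surjective σ₁ := by
    intro x
    obtain ⟨y, hy⟩ := QuotientGroup.mk_surjective (e x)
    refine ⟨y, ?_⟩
    show e.symm (QuotientGroup.mk y) = x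
    rw [hy]
    exact e.symm_apply_apply x
  -- the sign on `E`
  have hsign : ∀ y : E, (s (σ₁ y) = 1 ∧ (y : W) * z * (y : W)⁻¹ = z) ∨
      (s (σ₁ y) = -1 ∧ (y : W) * z * (y : W)⁻¹ = z⁻¹) := by
    rintro ⟨y, hy⟩
    induction hy using Subgroup.closure_induction with
    | mem x hx =>
      rcases hx with ⟨c, hc, rfl⟩ | rfl
      · right
        refine ⟨?_, hzF c hc⟩
        rw [hσ₁F c hc]
        exact hsE c hc
      · left
        refine ⟨?_, by simp⟩
        rw [(hker₁ z').2 (mem_zpowers z'), map_one]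
    | one =>
      left
      refine ⟨?_, by simp⟩
      have : (⟨1, one_mem _⟩ : E) = 1 := rfl
      rw [this, map_one, map_one]
    | mul x y hx hy h1 h2 =>
      have e0 : (⟨x * y, mul_mem hx hy⟩ : E) = ⟨x, hx⟩ * ⟨y, hy⟩ := rfl
      have e1 : x * y * z * (x * y)⁻¹ = x * (y * z * y⁻¹) * x⁻¹ := by group
      have e2 : x * z⁻¹ * x⁻¹ = (x * z * x⁻¹)⁻¹ := by group
      rw [e0, map_mul, map_mul]
      show _ ∨ _
      simp only [Subgroup.coe_mul, MulMemClass.mk_mul_mk]
      rw [e1]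
      rcases h1 with ⟨a1, a2⟩ | ⟨a1, a2⟩ <;> rcases h2 with ⟨b1, b2⟩ | ⟨b1, b2⟩ <;> rw [a1, b1, b2]
      · left; exact ⟨by norm_num, a2⟩
      · right; rw [e2, a2]; exact ⟨by norm_num, rfl⟩
      · right; exact ⟨by norm_num, a2⟩
      · left; rw [e2, a2, inv_inv]; exact ⟨by norm_num, rfl⟩
    | inv x hx h1 =>
      have e0 : (⟨x⁻¹, inv_mem hx⟩ : E) = (⟨x, hx⟩ : E)⁻¹ := rfl
      rw [e0, map_inv, map_inv]
      simp only [InvMemClass.coe_inv]
      rcases h1 with ⟨a1, a2⟩ | ⟨a1, a2⟩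
      · left
        rw [a1]
        refine ⟨by norm_num, ?_⟩
        have e3 : x⁻¹ * z * x⁻¹⁻¹ = x⁻¹ * (x * z * x⁻¹) * x⁻¹⁻¹ := by rw [a2]
        rw [e3]; group
      · right
        rw [a1]
        refine ⟨by decide, ?_⟩
        have e3 : x⁻¹ * z * x⁻¹⁻¹ = (x⁻¹ * z⁻¹ * x⁻¹⁻¹)⁻¹ := by group
        have e4 : x⁻¹ * z⁻¹ * x⁻¹⁻¹ = x⁻¹ * (x * z * x⁻¹) * x⁻¹⁻¹ := by rw [a2]
        rw [e3, e4]; group
  -- the group
  let Γ₀ : Subgroup E := (s.comp σ₁).ker
  have hΓ₀ : ∀ y : E, y ∈ Γ₀ ↔ s (σ₁ y) = 1 := fun y => MonoidHom.mem_ker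
  have hΓ₀conj : ∀ y ∈ Γ₀, (y : W) * z * (y : W)⁻¹ = z := by
    intro y hy
    rcases hsign y with ⟨_, h⟩ | ⟨h1, _⟩
    · exact h
    · rw [(hΓ₀ y).1 hy] at h1
      exact absurd h1 (by decide)
  have hmemG : ∀ y : Γ₀, σ₁ y ∈ commutator (PresentedGroup R) := by
    intro y
    rw [← hsk, MonoidHom.mem_ker]
    exact (hΓ₀ y).1 y.2
  let σ : Γ₀ →* commutator (PresentedGroup R) := (σ₁.comp Γ₀.subtype).codRestrict _ hmemG
  have hσv : ∀ y : Γ₀, ((σ y : commutator (PresentedGroup R)) : PresentedGroup R) = σ₁ y := fun _ => rfl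
  have hσsurj : Function.Surjective σ := by
    rintro ⟨g, hg⟩
    obtain ⟨y, rfl⟩ := hσ₁surj g
    have hy : y ∈ Γ₀ := by
      rw [hΓ₀, ← MonoidHom.mem_ker, hsk]
      exact hg
    exact ⟨⟨y, hy⟩, rfl⟩
  have hz'Γ : z' ∈ Γ₀ := by
    rw [hΓ₀, (hker₁ z').2 (mem_zpowers z'), map_one]
  let zz : Γ₀ := ⟨z', hz'Γ⟩
  have hσker : ∀ y : Γ₀, y ∈ σ.ker ↔ y ∈ zpowers zz := by
    intro y
    rw [MonoidHom.mem_ker]
    constructor
    · intro h
      have h1 : σ₁ y = 1 := congrArg Subtype.val h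
      obtain ⟨i, hi⟩ := (hker₁ y.1).1 h1
      refine ⟨i, ?_⟩
      apply Subtype.ext
      rw [← hi]
      rfl
    · rintro ⟨i, rfl⟩
      apply Subtype.ext
      show σ₁ (zz ^ i : Γ₀) = 1
      have h1 : ((zz ^ i : Γ₀) : E) ∈ N := by
        refine ⟨i, ?_⟩
        rfl
      exact (hker₁ _).2 h1
  have hord : orderOf z = 3 := by
    have h3 : Fact (Nat.Prime 3) := ⟨Nat.prime_three⟩
    exact orderOf_eq_prime hz3 hz1
  have hordzz : orderOf zz = 3 := by
    have h1 : orderOf zz = orderOf z' := Subgroup.orderOf_mk z' hz'Γ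
    have h2 : orderOf z' = orderOf z := Subgroup.orderOf_mk z hzE
    rw [h1, h2, hord]
  have hzzpow : ∀ n : Nat, (((zz ^ n : Γ₀) : E) : W) = z ^ n := fun _ => rfl
  -- the commutator
  have hperf : commutator (commutator (PresentedGroup R)) = ⊤ := by
    have h1 := hs.eq_bot_or_eq_top_of_normal (commutator (commutator (PresentedGroup R))) inferInstance
    rcases h1 with h1 | h1
    · exfalso
      apply hna
      intro a b
      have h2 : ⁅a, b⁆ ∈ commutator (commutator (PresentedGroup R)) :=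
        Subgroup.commutator_mem_commutator (mem_top a) (mem_top b)
      rw [h1, mem_bot, commutatorElement_eq_one_iff_commute] at h2
      exact h2
    · exact h1
  have hgen : ∀ y : Γ₀, ∃ i : ℤ, ∃ a ∈ commutator Γ₀, y = zz ^ i * a := by
    intro y
    have h1 : σ y ∈ (commutator Γ₀).map σ := by
      have h2 : (commutator Γ₀).map σ = ⊤ := by
        have h3 : commutator Γ₀ = ⁅(⊤ : Subgroup Γ₀), ⊤⁆ := rfl
        rw [h3, Subgroup.map_commutator, ← MonoidHom.range_eq_map, MonoidHom.range_eq_top.2 hσsurj]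
        exact hperf
      rw [h2]
      exact mem_top _
    obtain ⟨a, ha, hay⟩ := h1
    have h3 : y * a⁻¹ ∈ σ.ker := by
      rw [MonoidHom.mem_ker, map_mul, map_inv, hay, mul_inv_cancel]
    obtain ⟨i, hi⟩ := (hσker _).1 h3
    refine ⟨i, a, ha, ?_⟩
    have hi' : zz ^ i = y * a⁻¹ := hi
    rw [hi']
    group
  have hzzcomm : zz ∈ commutator Γ₀ := by
    refine z_mem_commutator_tw Γ₀ (kk := K.k) h0k Fe ?_ ?_ zz ?_ ?_ hgen rows ?_ hok hone
    · intro c hc d hd
      rw [hΓ₀, map_mul, map_mul]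
      have e1 : Fe c = ⟨F c, hFE c hc⟩ := Subtype.ext (hFe c hc)
      have e2 : Fe d = ⟨F d, hFE d hd⟩ := Subtype.ext (hFe d hd)
      rw [e1, e2, hσ₁F c hc, hσ₁F d hd, hsE c hc, hsE d hd]
      norm_num
    · apply Subtype.ext
      rw [Subgroup.coe_mul, hFe 0 h0k]
      exact h00
    · apply Subtype.ext
      show ((Fe 0 : E) : W) * z * ((Fe 0 : E) : W)⁻¹ = z⁻¹
      rw [hFe 0 h0k]
      exact hzF 0 h0k
    · apply Subtype.ext
      apply Subtype.ext
      exact hz3
    · intro t ht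
      obtain ⟨h1, h2, h3⟩ := hrows t ht
      refine ⟨h1, h2, ?_⟩
      apply Subtype.ext
      rw [hprod t.1 h1, h3]
      rfl
  refine ⟨Γ₀, inferInstance, inferInstance, σ, ⟨hσsurj, ?_, ?_⟩, ?_⟩
  · intro y hy
    rw [mem_center_iff]
    intro u
    obtain ⟨i, rfl⟩ := (hσker y).1 hy
    have h1 : u * zz = zz * u := by
      apply Subtype.ext
      apply Subtype.ext
      show ((u : E) : W) * z = z * ((u : E) : W)
      have h2 := hΓ₀conj u.1 u.2
      rw [mul_inv_eq_iff_eq_mul] at h2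
      exact h2
    exact ((Commute.zpow_right (show Commute u zz from h1) i)).eq
  · intro y hy
    obtain ⟨i, rfl⟩ := (hσker y).1 hy
    exact zpow_mem hzzcomm i
  · have h5 : Nat.card σ.ker = Nat.card (zpowers zz) := by
      apply Nat.card_congr
      exact Equiv.subtypeEquivRight hσker
    rw [h5, Nat.card_zpowers, hordzz]

end Abstract

section Tab

variable {M : Nat}

/-- A twisted monomial permutation. -/
def tmono (π : Equiv.Perm (Fin M)) (s : Fin M → ZMod 3) : Equiv.Perm (Fin M × ZMod 3) :=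
  Equiv.prodShear π (fun x => (Equiv.neg _).trans (Equiv.addRight (s x)))

@[simp] lemma tmono_apply (π : Equiv.Perm (Fin M)) (s : Fin M → ZMod 3) (x : Fin M) (a : ZMod 3) :
    tmono π s (x, a) = (π x, -a + s x) := rfl

lemma shift_tmono_shift (π : Equiv.Perm (Fin M)) (s : Fin M → ZMod 3) :
    (shiftZ : Equiv.Perm (Fin M × ZMod 3)) * tmono π s * shiftZ = tmono π s := by
  ext1 ⟨x, a⟩
  rw [Equiv.Perm.mul_apply, Equiv.Perm.mul_apply]
  show CoverP.mono 1 (fun _ => 1) (tmono π s (CoverP.mono 1 (fun _ => 1) (x, a))) = _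
  simp only [CoverP.mono_apply, tmono_apply, Equiv.Perm.coe_one, id_eq, Prod.mk.injEq, true_and]
  ring

/-- A walk along a word of columns, from the point `x` with accumulated value `acc`. -/
noncomputable def walkT (tb : Nat → Nat → Nat) (w : List Nat) : Nat → Nat → (Nat → Nat → Bool) → Bool :=
  List.rec (motive := fun _ => Nat → Nat → (Nat → Nat → Bool) → Bool)
    (fun x acc cont => cont x acc)
    (fun c _ ih x acc cont =>
      force (tb c x) fun e => ih (Nat.div e 3) (Nat.mod (Nat.add (Nat.mod e 3) (Nat.sub 3 acc)) 3) cont) w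

/-- The relator `w` is `z ^ j` at the point `x`. -/
noncomputable def relAtT (tb : Nat → Nat → Nat) (x : Nat) (t : List Nat × Nat) : Bool :=
  walkT tb t.1 x 0 fun y acc => ifB (Nat.beq y x) (Nat.beq acc t.2)

/-- All the checks at the point `x`. -/
noncomputable def chkAtT (P : PT) (KK : Nat) (tb : Nat → Nat → Nat) (RJ : List (List Nat × Nat))
    (x : Nat) : Bool :=
  ifB (allL (fun c => Nat.beq (Nat.div (tb c x) 3) (P.T c x)) (List.range KK)) (allL (relAtT tb x) RJ)

/-- The twisted monomial permutation of a column. -/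
def Tm (tb : Nat → Nat → Nat) (p : Nat → Equiv.Perm (Fin M)) (c : Nat) : Equiv.Perm (Fin M × ZMod 3) :=
  tmono (p c) (fun x => ((tb c x % 3 : Nat) : ZMod 3))

lemma walk_spec_t {KK : Nat} {tb : Nat → Nat → Nat} {p : Nat → Equiv.Perm (Fin M)}
    (hp : ∀ c < KK, ∀ x : Fin M, ((p c x : Fin M) : Nat) = tb c x / 3) (w : List Nat) (hw : ∀ c ∈ w, c < KK)
    (x : Fin M) :
    ∃ (y : Fin M) (t : ZMod 3), y = prodA p w x ∧
      (∀ a, prodA (Tm tb p) w (x, a) = (y, (-1) ^ w.length * a + t)) ∧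
      ∀ (acc : Nat) (cont : Nat → Nat → Bool), acc < 3 → ∃ r : Nat, r < 3 ∧
        ((r : ZMod 3) = (-1) ^ w.length * (acc : ZMod 3) + t) ∧ walkT tb w x acc cont = cont y r := by
  induction w generalizing x with
  | nil =>
    refine ⟨x, 0, rfl, fun a => ?_, fun acc cont h => ⟨acc, h, by simp, rfl⟩⟩
    simp
  | cons c w ih =>
    obtain ⟨y, t, h0, h1, h2⟩ := ih (fun d hd => hw d (by simp [hd])) (p c x)
    refine ⟨y, (-1) ^ w.length * ((tb c x % 3 : Nat) : ZMod 3) + t, ?_, fun a => ?_, fun acc cont hacc => ?_⟩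
    · rw [prodA_cons, Equiv.Perm.mul_apply, h0]
    · rw [prodA_cons, Equiv.Perm.mul_apply]
      show prodA (Tm tb p) w (p c x, -a + ((tb c x % 3 : Nat) : ZMod 3)) = _
      rw [h1, List.length_cons, pow_succ]
      congr 1
      ring
    · have h3 : walkT tb (c :: w) x acc cont = force (tb c x) fun e =>
          walkT tb w (Nat.div e 3) (Nat.mod (Nat.add (Nat.mod e 3) (Nat.sub 3 acc)) 3) cont := rfl
      have h4 : Nat.div (tb c x) 3 = ((p c x : Fin M) : Nat) := (hp c (hw c (by simp)) x).symm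
      have h5 : Nat.mod (Nat.add (Nat.mod (tb c x) 3) (Nat.sub 3 acc)) 3 < 3 := Nat.mod_lt _ (by norm_num)
      obtain ⟨r, hr, hr1, hr2⟩ := h2 _ cont h5
      refine ⟨r, hr, ?_, ?_⟩
      · rw [hr1, List.length_cons, pow_succ]
        have h6 : ((Nat.mod (Nat.add (Nat.mod (tb c x) 3) (Nat.sub 3 acc)) 3 : Nat) : ZMod 3) =
            ((tb c x % 3 : Nat) : ZMod 3) - (acc : ZMod 3) := by
          show (((tb c x % 3 + (3 - acc)) % 3 : Nat) : ZMod 3) = _
          rw [ZMod.natCast_mod, Nat.cast_add, Nat.cast_sub hacc.le]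
          have : ((3 : Nat) : ZMod 3) = 0 := rfl
          rw [this]
          ring
        rw [h6]
        ring
      · rw [h3]
        simp only [force_eq]
        rw [h4, hr2]

/-- A relation on all points is an equality of permutations. -/
lemma prodA_eq_of_relAtT {KK : Nat} {tb : Nat → Nat → Nat} {p : Nat → Equiv.Perm (Fin M)}
    (hp : ∀ c < KK, ∀ x : Fin M, ((p c x : Fin M) : Nat) = tb c x / 3) (w : List Nat) (hw : ∀ c ∈ w, c < KK)
    (hev : Even w.length) (j : Nat) (h : ∀ x < M, relAtT tb x (w, j) = true) :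
    prodA (Tm tb p) w = (shiftZ : Equiv.Perm (Fin M × ZMod 3)) ^ j ∧ prodA p w = 1 := by
  have key : ∀ x : Fin M, prodA p w x = x ∧ ∀ a, prodA (Tm tb p) w (x, a) = (x, a + (j : ZMod 3)) := by
    intro x
    obtain ⟨y, t, h0, h1, h2⟩ := walk_spec_t hp w hw x
    obtain ⟨r, _, hr1, hr2⟩ := h2 0 (fun y acc => ifB (Nat.beq y x) (Nat.beq acc j)) (by norm_num)
    have h3 := h x.1 x.2
    rw [relAtT] at h3
    simp only at h3
    rw [hr2, ifB_eq_true] at h3
    have h4 : (y : Nat) = x := Nat.eq_of_beq_eq_true h3.1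
    have h5 : r = j := Nat.eq_of_beq_eq_true h3.2
    have h6 : y = x := Fin.ext h4
    subst h6
    subst h5
    refine ⟨h0.symm, fun a => ?_⟩
    rw [h1, hev.neg_one_pow, hr1]
    simp
  refine ⟨?_, ?_⟩
  · ext1 ⟨x, a⟩
    rw [(key x).2, shiftZ_pow]
  · ext1 x
    rw [(key x).1]
    rfl

/-- The main concrete theorem. -/
theorem exists_stem_of_tables_tw {α : Type*} {K : Cols α} {R : Set (FreeGroup α)} {rels : List (List Nat)}
    {P : PT} (φ₀ : PresentedGroup R →* Equiv.Perm (Fin P.n)) (hK : K.Valid (R := R))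
    (hR : ∀ r ∈ R, ∃ L, r = FreeGroup.mk L ∧ ∃ j, rotN (K.word L) j ∈ rels)
    (hs : IsSimpleGroup (commutator (PresentedGroup R)))
    (hna : ¬ ∀ a b : commutator (PresentedGroup R), a * b = b * a)
    (s : PresentedGroup R →* ℤˣ) (hsE : ∀ c < K.k, s (K.E R c) = -1)
    (hsk : s.ker = commutator (PresentedGroup R))
    (hφ₀ : Function.Injective φ₀) (hval : ∀ c < K.k, ∀ i : Fin P.n, (φ₀ (K.E R c) i).1 = P.T c i.1)
    (hn : 0 < P.n) (h0k : 0 < K.k) (tb : Nat → Nat → Nat)
    (RJ : List (List Nat × Nat)) (rows : List (List Nat × Nat × ℤ))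
    (hcheck : ∀ x < P.n, chkAtT P K.k tb RJ x = true)
    (hrelk : ∀ l ∈ rels, ∀ c ∈ l, c < K.k)
    (hrels : ∀ l ∈ rels, ∃ j, (l, j) ∈ RJ)
    (hinvs : ∀ c < K.k, ∃ j, ([c, K.inv c], j) ∈ RJ)
    (hRJ : ∀ t ∈ RJ, ∀ c ∈ t.1, c < K.k)
    (hRJe : ∀ t ∈ RJ, Even t.1.length)
    (h00 : ([0, 0], 0) ∈ RJ)
    (hrowsRJ : ∀ t ∈ rows, (t.1, t.2.1) ∈ RJ)
    (hok : comboTw K.k rows = true)
    (hone : comboE rows % 3 = 1 % 3) :
    ∃ (Γ : Type) (_ : Group Γ) (_ : Finite Γ) (σ : Γ →* commutator (PresentedGroup R)),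
      IsStemExtension σ ∧ Nat.card σ.ker = 3 := by
  classical
  let p : Nat → Equiv.Perm (Fin P.n) := fun c => φ₀ (K.E R c)
  have hrelAt : ∀ t ∈ RJ, ∀ x < P.n, relAtT tb x t = true := by
    intro t ht x hx
    have h := hcheck x hx
    rw [chkAtT, ifB_eq_true] at h
    exact (allL_eq_true _ _).1 h.2 t ht
  have hp : ∀ c < K.k, ∀ x : Fin P.n, ((p c x : Fin P.n) : Nat) = tb c x / 3 := by
    intro c hc x
    have h := hcheck x.1 x.2
    rw [chkAtT, ifB_eq_true] at h
    have h1 := (allL_eq_true _ _).1 h.1 c (List.mem_range.2 hc)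
    have h2 := Nat.eq_of_beq_eq_true h1
    show (φ₀ (K.E R c) x).1 = _
    rw [hval c hc x]
    exact h2.symm
  let F : Nat → (Equiv.Perm (Fin P.n × ZMod 3)) × Equiv.Perm (Fin P.n) := fun c => (Tm tb p c, p c)
  let z : (Equiv.Perm (Fin P.n × ZMod 3)) × Equiv.Perm (Fin P.n) := (shiftZ, 1)
  have hfst : ∀ l : List Nat, (prodA F l).1 = prodA (Tm tb p) l := by
    intro l
    induction l with
    | nil => rfl
    | cons c l ih => rw [prodA_cons, prodA_cons, Prod.fst_mul, ih]
  have hsnd : ∀ l : List Nat, (prodA F l).2 = prodA p l := by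
    intro l
    induction l with
    | nil => rfl
    | cons c l ih => rw [prodA_cons, prodA_cons, Prod.snd_mul, ih]
  have hzpow : ∀ j : Nat, z ^ j = ((shiftZ : Equiv.Perm (Fin P.n × ZMod 3)) ^ j, 1) := by
    intro j
    rw [Prod.pow_def]
    simp [z]
  have hRJval : ∀ t ∈ RJ, prodA F t.1 = z ^ t.2 := by
    intro t ht
    have h1 := prodA_eq_of_relAtT hp t.1 (hRJ t ht) (hRJe t ht) t.2 (fun x hx => hrelAt t ht x hx)
    rw [hzpow]
    apply Prod.ext
    · rw [hfst]
      exact h1.1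
    · rw [hsnd]
      exact h1.2
  have hordS := orderOf_shiftZ (M := P.n) (k := 3) hn
  refine exists_stem_tw (K := K) (R := R) (rels := rels) hK hR hs hna s hsE hsk F z (MonoidHom.snd _ _) φ₀ hφ₀
    rfl (fun c _ => rfl) ?_ ?_ ?_ h0k ?_ ?_ hrelk ?_ rows ?_ hok hone
  · rw [hzpow]
    have h1 := pow_orderOf_eq_one (shiftZ : Equiv.Perm (Fin P.n × ZMod 3))
    rw [hordS] at h1
    rw [h1]
    rfl
  · intro h
    have h1 : (shiftZ : Equiv.Perm (Fin P.n × ZMod 3)) = 1 := congrArg Prod.fst h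
    rw [h1, orderOf_one] at hordS
    omega
  · intro c _
    rw [mul_inv_eq_iff_eq_mul, eq_inv_mul_iff_mul_eq]
    apply Prod.ext
    · show (shiftZ : Equiv.Perm (Fin P.n × ZMod 3)) * (Tm tb p c * shiftZ) = Tm tb p c
      rw [← mul_assoc]
      exact shift_tmono_shift (p c) (fun x => ((tb c x % 3 : Nat) : ZMod 3))
    · show 1 * (p c * 1) = p c
      simp
  · have h1 := hRJval _ h00
    have h2 : F 0 * F 0 = prodA F [0, 0] := by
      simp only [prodA_cons, prodA_nil, one_mul]
    rw [h2, h1, pow_zero]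
  · intro c hc
    obtain ⟨j, hj⟩ := hinvs c hc
    have h1 := hRJval _ hj
    have h2 : F (K.inv c) * F c = prodA F [c, K.inv c] := by
      simp only [prodA_cons, prodA_nil, one_mul]
    rw [h2, h1]
    exact pow_mem (mem_zpowers _) _
  · intro l hl
    obtain ⟨j, hj⟩ := hrels l hl
    rw [hRJval _ hj]
    exact pow_mem (mem_zpowers _) _
  · intro t ht
    have hu := hrowsRJ t ht
    exact ⟨hRJ _ hu, hRJe _ hu, hRJval _ hu⟩

end Tab

end Cfsg.Agent.Lib.Schur.CoverTw
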