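import Cfsg.Agent.Lib.TC.Iso
import Cfsg.Agent.Lib.Schur.Stem

/-!
# Rewriting words in a group whose letters satisfy Coxeter-type relations

Certificates of word identities: a list of moves (commute, braid, cancel) which transforms a word
into the empty word; the moves hold in any group whose letters satisfy the relations of a simply
laced diagram, with a central common square.
-/

set_option autoImplicit false

namespace Cfsg.Agent.Lib.Schur.CoxRew

open Cfsg.Agent.Lib.TC.Core (prodA prodA_nil prodA_cons prodA_append)

/-- One move at the head of a list: `0` commute, `1` braid, `2` cancel. -/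
def moveAt (k : ℕ) (adj : ℕ → ℕ → Bool) (kind : ℕ) : List ℕ → Option (List ℕ × ℕ)
  | x :: y :: r =>
    if kind = 0 then
      if x < k ∧ y < k ∧ x ≠ y ∧ adj x y = false then some (y :: x :: r, 0) else none
    else if kind = 2 then
      if x = y ∧ x < k then some (r, 1) else none
    else
      match r with
      | z :: r' => if x = z ∧ x < k ∧ y < k ∧ adj x y = true then some (y :: x :: y :: r', 0) else none
      | [] => none
  | _ => none

/-- One move at a position. -/
def step (k : ℕ) (adj : ℕ → ℕ → Bool) (m : ℕ × ℕ) (l : List ℕ) : Option (List ℕ × ℕ) :=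
  (moveAt k adj m.2 (l.drop m.1)).map fun q => (l.take m.1 ++ q.1, q.2)

/-- A list of moves. -/
def run (k : ℕ) (adj : ℕ → ℕ → Bool) : List (ℕ × ℕ) → List ℕ → ℕ → Option (List ℕ × ℕ)
  | [], l, c => some (l, c)
  | m :: ms, l, c =>
    match step k adj m l with
    | some q => run k adj ms q.1 (c + q.2)
    | none => none

/-- The check that a word reduces to the empty word with `n` cancellations. -/
def runOK (k : ℕ) (adj : ℕ → ℕ → Bool) (ms : List (ℕ × ℕ)) (w : List ℕ) (n : ℕ) : Bool :=
  match run k adj ms w 0 with
  | some ([], c) => c == n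
  | _ => false

section sound

variable {Γ : Type*} [Group Γ] {k : ℕ} {adj : ℕ → ℕ → Bool} {X : ℕ → Γ} {u : Γ}

/-- The relations needed for the moves. -/
structure Rel (k : ℕ) (adj : ℕ → ℕ → Bool) (X : ℕ → Γ) (u : Γ) : Prop where
  hcu : ∀ g, g * u = u * g
  hu : ∀ x, x < k → X x * X x = u
  hb : ∀ x y, x < k → y < k → adj x y = true → X x * X y * X x = X y * X x * X y
  hc : ∀ x y, x < k → y < k → x ≠ y → adj x y = false → X x * X y = X y * X x
  hsym : ∀ x y, x < k → y < k → adj x y = adj y x

theorem moveAt_spec (h : Rel k adj X u) {kind : ℕ} {l l' : List ℕ} {c : ℕ}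
    (hm : moveAt k adj kind l = some (l', c)) : prodA X l = prodA X l' * u ^ c := by
  match l, hm with
  | x :: y :: r, hm =>
    by_cases h0 : kind = 0
    · have h1 : (x < k ∧ y < k ∧ x ≠ y ∧ adj x y = false) := by
        by_contra hn
        simp [moveAt, h0, hn] at hm
      have h2 : (y :: x :: r, 0) = (l', c) := by
        simp only [moveAt] at hm
        rw [if_pos h0, if_pos h1] at hm
        exact Option.some.inj hm
      obtain ⟨hx, hy, hne, ha⟩ := h1
      obtain ⟨rfl, rfl⟩ := Prod.mk.inj h2
      have ha' : adj y x = false := (h.hsym y x hy hx).trans ha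
      simp only [prodA_cons, pow_zero, mul_one, mul_assoc, h.hc y x hy hx hne.symm ha']
    · by_cases h3 : kind = 2
      · have h1 : x = y ∧ x < k := by
          by_contra hn
          simp [moveAt, h3, hn] at hm
        have h2 : (r, 1) = (l', c) := by
          simp only [moveAt] at hm
          rw [if_neg h0, if_pos h3, if_pos h1] at hm
          exact Option.some.inj hm
        obtain ⟨rfl, hx⟩ := h1
        obtain ⟨rfl, rfl⟩ := Prod.mk.inj h2
        simp only [prodA_cons, pow_one, mul_assoc, h.hu x hx]
      · cases r with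
        | nil => simp [moveAt, h0, h3] at hm
        | cons z r' =>
          have h1 : x = z ∧ x < k ∧ y < k ∧ adj x y = true := by
            by_contra hn
            simp [moveAt, h0, h3, hn] at hm
          have h2 : (y :: x :: y :: r', 0) = (l', c) := by
            simp only [moveAt] at hm
            rw [if_neg h0, if_neg h3, if_pos h1] at hm
            exact Option.some.inj hm
          obtain ⟨rfl, hx, hy, ha⟩ := h1
          obtain ⟨rfl, rfl⟩ := Prod.mk.inj h2
          simp only [prodA_cons, pow_zero, mul_one, mul_assoc]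
          congr 1
          simpa only [mul_assoc] using h.hb x y hx hy ha

theorem step_spec (h : Rel k adj X u) {m : ℕ × ℕ} {l l' : List ℕ} {c : ℕ}
    (hm : step k adj m l = some (l', c)) : prodA X l = prodA X l' * u ^ c := by
  simp only [step, Option.map_eq_some_iff] at hm
  obtain ⟨q, hq, hq2⟩ := hm
  obtain ⟨rfl, rfl⟩ := Prod.mk.inj hq2
  have h1 := moveAt_spec h (l' := q.1) (c := q.2) (by simpa using hq)
  have h2 : prodA X l = prodA X (l.drop m.1) * prodA X (l.take m.1) := by
    conv_lhs => rw [← List.take_append_drop m.1 l]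
    rw [prodA_append]
  have hcomm : ∀ (g : Γ) (n : ℕ), g * u ^ n = u ^ n * g := fun g n =>
    (Commute.pow_right (h.hcu g) n).eq
  rw [h2, h1, prodA_append, mul_assoc, mul_assoc, hcomm (prodA X (List.take m.1 l)) q.2]

theorem run_spec (h : Rel k adj X u) {ms : List (ℕ × ℕ)} {l l' : List ℕ} {c c' : ℕ}
    (hm : run k adj ms l c = some (l', c')) : prodA X l * u ^ c = prodA X l' * u ^ c' := by
  induction ms generalizing l c with
  | nil =>
    simp only [run, Option.some.injEq, Prod.mk.injEq] at hm
    obtain ⟨rfl, rfl⟩ := hm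
    rfl
  | cons m ms ih =>
    simp only [run] at hm
    cases hs : step k adj m l with
    | none => simp [hs] at hm
    | some q =>
      simp only [hs] at hm
      have h1 := ih hm
      rw [← h1, step_spec h (m := m) (l' := q.1) (c := q.2) (by simpa using hs), pow_add, mul_assoc]
      congr 1
      have hcomm : ∀ (n n' : ℕ), u ^ n * u ^ n' = u ^ n' * u ^ n := fun n n' => by
        rw [← pow_add, ← pow_add, add_comm]
      exact hcomm _ _

theorem runOK_spec (h : Rel k adj X u) {ms : List (ℕ × ℕ)} {w : List ℕ} {n : ℕ}
    (hm : runOK k adj ms w n = true) : prodA X w = u ^ n := by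
  unfold runOK at hm
  cases hr : run k adj ms w 0 with
  | none => simp [hr] at hm
  | some q =>
    rw [hr] at hm
    obtain ⟨l, c⟩ := q
    cases l with
    | cons _ _ => simp at hm
    | nil =>
      have hc : c = n := by simpa using hm
      subst hc
      have := run_spec h hr
      simpa using this

end sound

/-! ### Lifts in a stem extension -/

section lifts

open Cfsg

variable {Γ G : Type*} [Group Γ] [Group G] {σ : Γ →* G}

theorem central_of (hσ : IsStemExtension σ) {z : Γ} (hz : σ z = 1) (g : Γ) : z * g = g * z :=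
  (Subgroup.mem_center_iff.1 (hσ.2.1 hz) g).symm

theorem central_pow (hσ : IsStemExtension σ) {z : Γ} (hz : σ z = 1) (n : ℕ) (g : Γ) :
    z ^ n * g = g * z ^ n := by
  have : Commute z g := central_of hσ hz g
  exact (this.pow_left n).eq

/-- Two involutions of a coset of a central subgroup of odd exponent are equal. -/
theorem eq_of_sq (hσ : IsStemExtension σ) {m : ℕ} (hpow : ∀ z, σ z = 1 → z ^ (2 * m + 1) = 1)
    {a b : Γ} (ha : a * a = 1) (hb : b * b = 1) (hab : σ a = σ b) : a = b := by
  set z := a * b⁻¹ with hzdef
  have hz : σ z = 1 := by simp [hzdef, hab]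
  have hazb : a = z * b := by simp [hzdef]
  have h1 : z * z = 1 := by
    have h2 : a * a = z * z * (b * b) := by
      rw [hazb, mul_assoc z b (z * b), ← mul_assoc b z b, ← central_of hσ hz b]
      group
    rw [ha, hb, mul_one] at h2
    exact h2.symm
  have h3 := hpow z hz
  have h4 : z ^ (2 * m) = 1 := by
    rw [pow_mul, pow_two, h1, one_pow]
  rw [pow_succ, h4, one_mul] at h3
  rw [hazb, h3, one_mul]

/-- A lift of an involution which is an involution (odd exponent). -/
theorem exists_invol (hσ : IsStemExtension σ) {m : ℕ} (hpow : ∀ z, σ z = 1 → z ^ (2 * m + 1) = 1)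
    {g : Γ} (hg : σ (g * g) = 1) : ∃ a, σ a = σ g ∧ a * a = 1 := by
  refine ⟨g * (g * g) ^ m, ?_, ?_⟩
  · rw [map_mul, map_pow, hg, one_pow, mul_one]
  · have h1 := central_pow hσ hg m g
    calc g * (g * g) ^ m * (g * (g * g) ^ m) = g * ((g * g) ^ m * g) * (g * g) ^ m := by group
      _ = g * (g * (g * g) ^ m) * (g * g) ^ m := by rw [h1]
      _ = (g * g) * ((g * g) ^ m * (g * g) ^ m) := by group
      _ = (g * g) ^ (2 * m + 1) := by rw [pow_succ', two_mul, pow_add]
      _ = 1 := hpow _ hg

/-- Correcting a lift so that the braid relation holds. -/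
theorem fix_braid (hσ : IsStemExtension σ) {a b : Γ} (h : σ (a * b * a) = σ (b * a * b)) :
    ∃ b', σ b' = σ b ∧ a * b' * a = b' * a * b' := by
  set w := (a * b * a) * (b * a * b)⁻¹ with hw
  have hw1 : σ w = 1 := by
    rw [hw, map_mul, map_inv, h, mul_inv_cancel]
  have hc := central_of hσ hw1
  have haba : a * b * a = w * (b * a * b) := by rw [hw]; group
  refine ⟨b * w, by simp [hw1], ?_⟩
  calc a * (b * w) * a = a * b * (w * a) := by group
    _ = a * b * (a * w) := by rw [hc a]
    _ = (a * b * a) * w := by group
    _ = w * (b * a * b) * w := by rw [haba]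
    _ = (b * a * b) * w * w := by rw [hc (b * a * b)]
    _ = b * a * (b * w) * w := by group
    _ = b * a * (w * b) * w := by rw [hc b]
    _ = b * (a * w) * b * w := by group
    _ = b * (w * a) * b * w := by rw [hc a]
    _ = b * w * a * (b * w) := by group

/-- The braid relation conjugates one letter to the other. -/
theorem sq_eq_of_braid (hσ : IsStemExtension σ) {a b : Γ} (h : a * b * a = b * a * b)
    (ha : σ (a * a) = 1) : b * b = a * a := by
  have h1 : b = (a * b) * a * (a * b)⁻¹ := by
    rw [eq_mul_inv_iff_mul_eq, h]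
    group
  calc b * b = (a * b) * a * (a * b)⁻¹ * ((a * b) * a * (a * b)⁻¹) := by rw [← h1]
    _ = (a * b) * (a * a) * (a * b)⁻¹ := by group
    _ = (a * a) * (a * b) * (a * b)⁻¹ := by rw [← central_of hσ ha (a * b)]
    _ = a * a := by group

/-- A conjugation acting by central factors on two braided letters: the factors are equal. -/
theorem kappa_eq_of_braid (hσ : IsStemExtension σ) {a b T ka kb : Γ} (h : a * b * a = b * a * b)
    (hka : σ ka = 1) (hkb : σ kb = 1)
    (h1 : T * a * T⁻¹ = ka * a) (h2 : T * b * T⁻¹ = kb * b) : ka = kb := by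
  have c1 := central_of hσ hka
  have c2 := central_of hσ hkb
  have h3 : T * (a * b * a) * T⁻¹ = ka * ka * kb * (a * b * a) := by
    calc T * (a * b * a) * T⁻¹ = (T * a * T⁻¹) * (T * b * T⁻¹) * (T * a * T⁻¹) := by group
      _ = ka * a * (kb * b) * (ka * a) := by rw [h1, h2]
      _ = ka * (a * kb) * (b * ka) * a := by group
      _ = ka * (kb * a) * (ka * b) * a := by rw [c2 a, c1 b]
      _ = ka * kb * (a * ka) * b * a := by group
      _ = ka * kb * (ka * a) * b * a := by rw [c1 a]
      _ = ka * (kb * ka) * (a * b * a) := by group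
      _ = ka * (ka * kb) * (a * b * a) := by rw [c2 ka]
      _ = ka * ka * kb * (a * b * a) := by group
  have h4 : T * (b * a * b) * T⁻¹ = kb * kb * ka * (b * a * b) := by
    calc T * (b * a * b) * T⁻¹ = (T * b * T⁻¹) * (T * a * T⁻¹) * (T * b * T⁻¹) := by group
      _ = kb * b * (ka * a) * (kb * b) := by rw [h1, h2]
      _ = kb * (b * ka) * (a * kb) * b := by group
      _ = kb * (ka * b) * (kb * a) * b := by rw [c1 b, c2 a]
      _ = kb * ka * (b * kb) * a * b := by group
      _ = kb * ka * (kb * b) * a * b := by rw [c2 b]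
      _ = kb * (ka * kb) * (b * a * b) := by group
      _ = kb * (kb * ka) * (b * a * b) := by rw [c1 kb]
      _ = kb * kb * ka * (b * a * b) := by group
  rw [h] at h3
  rw [h4] at h3
  have h5 : kb * kb * ka = ka * ka * kb := mul_right_cancel h3
  have h6 : ka * (ka * kb) = kb * (ka * kb) := by
    calc ka * (ka * kb) = ka * ka * kb := by group
      _ = kb * kb * ka := h5.symm
      _ = kb * (kb * ka) := by group
      _ = kb * (ka * kb) := by rw [c2 ka]
  exact mul_right_cancel h6

end lifts

end Cfsg.Agent.Lib.Schur.CoxRew
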