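import Cfsg.Agent.Lib.Schur.Stem

/-!
# Stem extensions of dihedral groups
-/

set_option autoImplicit false

namespace Cfsg.Agent.Lib.Schur.Dihedral

open Cfsg Subgroup DihedralGroup
open Cfsg.Agent.Lib.Schur.Stem
open scoped commutatorElement

universe u

variable (n : ℕ)

theorem closure_dihedral [NeZero n] : closure ({r 1, sr 0} : Set (DihedralGroup n)) = ⊤ := by
  rw [eq_top_iff]
  rintro x -
  have hA : ∀ i : ZMod n, (r i : DihedralGroup n) ∈ closure ({r 1, sr 0} : Set (DihedralGroup n)) := by
    intro i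
    have h1 : (r 1 : DihedralGroup n) ∈ closure ({r 1, sr 0} : Set (DihedralGroup n)) :=
      subset_closure (Or.inl rfl)
    have h2 := pow_mem h1 i.val
    rw [r_one_pow] at h2
    simpa using h2
  cases x with
  | r i => exact hA i
  | sr i =>
    have h1 : (sr 0 : DihedralGroup n) ∈ closure ({r 1, sr 0} : Set (DihedralGroup n)) :=
      subset_closure (Or.inr rfl)
    have := mul_mem h1 (hA i)
    simpa using this

theorem stemBound_dihedral [NeZero n] {k : ℕ} (hk : k * (n / Nat.gcd n 2) = n) :
    StemBound.{u} (DihedralGroup n) k := by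
  have hr : (sr 0 : DihedralGroup n) * r 1 * (sr 0)⁻¹ = (r 1) ^ (-1 : ℤ) := by
    simp
  have hm : (r 1 : DihedralGroup n) ^ ((n : ℕ) : ℤ) = 1 := by
    rw [zpow_natCast]; exact r_one_pow_n
  have hs : (sr 0 : DihedralGroup n) ^ 2 = (r 1) ^ (0 : ℤ) := by
    rw [pow_two, sr_mul_self, zpow_zero]
  have ho : orderOf ((r 1 : DihedralGroup n) ^ ((-1 : ℤ) - 1)) = n / Nat.gcd n 2 := by
    have h1 : (r 1 : DihedralGroup n) ^ ((-1 : ℤ) - 1) = ((r 1) ^ 2)⁻¹ := by
      rw [show ((-1 : ℤ) - 1) = -((2 : ℕ) : ℤ) by norm_num, zpow_neg, zpow_natCast]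
    rw [h1, orderOf_inv, orderOf_pow' _ (by norm_num), orderOf_r_one]
  refine StemBound.of_metacyclic (closure_dihedral n) hr hm hs (d := n) 1 0 0 (by simp) (by rw [ho, hk]) ?_
  rw [ho]
  exact Nat.div_pos (Nat.le_of_dvd (Nat.pos_of_ne_zero (NeZero.ne n)) (Nat.gcd_dvd_left _ _))
    (Nat.gcd_pos_of_pos_left _ (Nat.pos_of_ne_zero (NeZero.ne n)))

/-- The natural map `D_{2·2n} → D_{2n}`. -/
def doubleHom : DihedralGroup (2 * n) →* DihedralGroup n where
  toFun x := match x with
    | r i => r (ZMod.castHom (Nat.dvd_mul_left n 2) (ZMod n) i)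
    | sr i => sr (ZMod.castHom (Nat.dvd_mul_left n 2) (ZMod n) i)
  map_one' := by
    show r _ = _
    simp
  map_mul' := by
    rintro (i | i) (j | j) <;> simp

theorem doubleHom_surjective : Function.Surjective (doubleHom n) := by
  rintro (i | i)
  · obtain ⟨j, hj⟩ := ZMod.castHom_surjective (Nat.dvd_mul_left n 2) i
    exact ⟨r j, congrArg r hj⟩
  · obtain ⟨j, hj⟩ := ZMod.castHom_surjective (Nat.dvd_mul_left n 2) i
    exact ⟨sr j, congrArg sr hj⟩

theorem doubleHom_isStem [NeZero n] (hn : Even n) : IsStemExtension (doubleHom n) := by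
  have key : ∀ x : DihedralGroup (2 * n), x ∈ (doubleHom n).ker →
      ∃ i : ZMod (2 * n), x = r i ∧ ∃ j : ZMod (2 * n), i = 2 * j := by
    rintro (i | i) hi
    · refine ⟨i, rfl, ?_⟩
      have h0 : (ZMod.castHom (Nat.dvd_mul_left n 2) (ZMod n)) i = 0 := by
        have : r ((ZMod.castHom (Nat.dvd_mul_left n 2) (ZMod n)) i) = (r 0 : DihedralGroup n) := hi
        exact DihedralGroup.r.inj this
      have : NeZero (2 * n) := ⟨by have := NeZero.ne n; omega⟩
      obtain ⟨e, he⟩ := hn
      -- write `i = n * t`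
      have hval : n ∣ i.val := by
        have h1 : ((i.val : ℕ) : ZMod n) = 0 := by
          have : ((i.val : ℕ) : ZMod (2 * n)) = i := ZMod.natCast_zmod_val i
          have h2 := congrArg (ZMod.castHom (Nat.dvd_mul_left n 2) (ZMod n)) this
          rw [map_natCast] at h2
          rw [h2, h0]
        exact (ZMod.natCast_eq_zero_iff _ _).1 h1
      obtain ⟨t, ht⟩ := hval
      refine ⟨((e * t : ℕ) : ZMod (2 * n)), ?_⟩
      have : ((i.val : ℕ) : ZMod (2 * n)) = i := ZMod.natCast_zmod_val i
      rw [← this, ht, he]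
      push_cast
      ring
    · have : sr ((ZMod.castHom (Nat.dvd_mul_left n 2) (ZMod n)) i) = (r 0 : DihedralGroup n) := hi
      cases this
  refine ⟨doubleHom_surjective n, ?_, ?_⟩
  · intro x hx
    obtain ⟨i, rfl, j, hj⟩ := key x hx
    rw [mem_center_iff]
    have h2 : (2 : ZMod (2 * n)) * (n : ZMod (2 * n)) = 0 := by
      have := ZMod.natCast_self (2 * n)
      push_cast at this
      exact this
    have hi2 : i + i = 0 := by
      -- `i` maps to zero in `ZMod n`, so `2 i = 0`
      have h0 : (ZMod.castHom (Nat.dvd_mul_left n 2) (ZMod n)) i = 0 := by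
        have : r ((ZMod.castHom (Nat.dvd_mul_left n 2) (ZMod n)) i) = (r 0 : DihedralGroup n) := hx
        exact DihedralGroup.r.inj this
      have : NeZero (2 * n) := ⟨by have := NeZero.ne n; omega⟩
      have hval : n ∣ i.val := by
        have h1 : ((i.val : ℕ) : ZMod n) = 0 := by
          have : ((i.val : ℕ) : ZMod (2 * n)) = i := ZMod.natCast_zmod_val i
          have h2 := congrArg (ZMod.castHom (Nat.dvd_mul_left n 2) (ZMod n)) this
          rw [map_natCast] at h2
          rw [h2, h0]
        exact (ZMod.natCast_eq_zero_iff _ _).1 h1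
      obtain ⟨t, ht⟩ := hval
      have : ((i.val : ℕ) : ZMod (2 * n)) = i := ZMod.natCast_zmod_val i
      rw [← this, ht]
      push_cast
      linear_combination (t : ZMod (2 * n)) * h2
    rintro (k | k)
    · simp [add_comm]
    · simp only [r_mul_sr, sr_mul_r, sr.injEq]
      linear_combination hi2
  · intro x hx
    obtain ⟨i, rfl, j, rfl⟩ := key x hx
    have : (r (2 * j) : DihedralGroup (2 * n)) = ⁅sr (0 : ZMod (2 * n)), r (-j)⁆ := by
      rw [commutatorElement_def]
      simp
      ring
    rw [this]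
    exact Subgroup.commutator_mem_commutator (mem_top _) (mem_top _)

theorem card_ker_doubleHom [NeZero n] : Nat.card (doubleHom n).ker = 2 := by
  have : NeZero (2 * n) := ⟨by have := NeZero.ne n; omega⟩
  have h1 : Nat.card (doubleHom n).ker * (doubleHom n).ker.index = Nat.card (DihedralGroup (2 * n)) :=
    Subgroup.card_mul_index _
  rw [Subgroup.index_ker, MonoidHom.range_eq_top.2 (doubleHom_surjective n), Subgroup.card_top,
    DihedralGroup.nat_card, DihedralGroup.nat_card] at h1
  have hn : 0 < 2 * n := Nat.pos_of_ne_zero (NeZero.ne (2 * n))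
  nlinarith

end Cfsg.Agent.Lib.Schur.Dihedral
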