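import Cfsg.Agent.Lib.TC.D.Fi24Chain.Pres
import Cfsg.Agent.Lib.Schur.PcBase
import Cfsg.Agent.Lib.TC.D.Fi24a.Ok

/-!
# The presented group `Fi₂₄` as a faithful table

The action on the 306936 transpositions is faithful; the sign character has kernel the derived subgroup, which is simple
of the order of `Fi₂₄′`.
-/

set_option autoImplicit false
set_option maxRecDepth 100000

namespace Cfsg.Agent.Lib.Schur.Fi24Model

open Cfsg Subgroup
open Cfsg.Agent.Lib.TC.G.Fi24 (K Rel)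
open Cfsg.Agent.Lib.TC.D.Fi24a.Tab (pt)

theorem card_G : Nat.card (PresentedGroup Rel) = 2 * 1255205709190661721292800 := by
  rw [Nat.card_congr Cfsg.Agent.Lib.TC.D.Fi24Chain.Pres.e.toEquiv]
  exact Cfsg.Agent.Lib.TC.D.Fi24Chain.Main.hcard

theorem model : ∃ φ : PresentedGroup Rel →* Equiv.Perm (Fin pt.n),
    Cfsg.Agent.Lib.Schur.PcBase.Model pt (K.E Rel) K.k
      (Cfsg.Agent.Lib.TC.Iso.allBase [0] Cfsg.Agent.Lib.TC.D.Fi24Chain.Lev.levels) φ :=
  Cfsg.Agent.Lib.Schur.PcBase.model_of_ok Cfsg.Agent.Lib.TC.D.Fi24a.Ok.ok _ card_G (by norm_num) Cfsg.Agent.Lib.TC.D.Fi24Chain.Lev.levels Cfsg.Agent.Lib.TC.D.Fi24Chain.Lev.hlev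
    (by rw [Cfsg.Agent.Lib.TC.D.Fi24Chain.Main.hprod]) (by decide +kernel)

theorem card_comm : Nat.card (commutator (PresentedGroup Rel)) = 1255205709190661721292800 :=
  Cfsg.Agent.Lib.TC.D.Fi24Chain.Pres.main.2

theorem index_comm : (commutator (PresentedGroup Rel)).index = 2 := by
  have h := Subgroup.card_mul_index (commutator (PresentedGroup Rel))
  rw [card_comm, card_G] at h
  omega

theorem hsk : Cfsg.Agent.Lib.TC.D.Fi24Chain.Main.s0.ker = commutator (PresentedGroup Rel) := by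
  have hle : commutator (PresentedGroup Rel) ≤ Cfsg.Agent.Lib.TC.D.Fi24Chain.Main.s0.ker :=
    Abelianization.commutator_subset_ker Cfsg.Agent.Lib.TC.D.Fi24Chain.Main.s0
  have h1 := Subgroup.relIndex_mul_index hle
  rw [index_comm] at h1
  have h2 : Cfsg.Agent.Lib.TC.D.Fi24Chain.Main.s0.ker.index ≠ 1 := by
    intro h
    have h3 := Subgroup.index_eq_one.1 h
    have h4 : K.E Rel 0 ∈ Cfsg.Agent.Lib.TC.D.Fi24Chain.Main.s0.ker := by rw [h3]; exact Subgroup.mem_top _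
    rw [MonoidHom.mem_ker, Cfsg.Agent.Lib.TC.D.Fi24Chain.Main.hs0 0 (by decide)] at h4
    exact absurd h4 (by decide)
  have h5 : Cfsg.Agent.Lib.TC.D.Fi24Chain.Main.s0.ker.index ∣ 2 := Dvd.intro_left _ h1
  have h6 : Cfsg.Agent.Lib.TC.D.Fi24Chain.Main.s0.ker.index = 2 := by
    rcases (Nat.dvd_prime Nat.prime_two).1 h5 with h | h
    · exact absurd h h2
    · exact h
  rw [h6] at h1
  have h7 : (commutator (PresentedGroup Rel)).relIndex Cfsg.Agent.Lib.TC.D.Fi24Chain.Main.s0.ker = 1 := by omega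
  exact le_antisymm (Subgroup.relIndex_eq_one.1 h7) hle

theorem even_mem (l : List Nat) (hl : ∀ z ∈ l, z < K.k) (he : Even l.length) :
    Cfsg.Agent.Lib.TC.Core.prodA (K.E Rel) l ∈ commutator (PresentedGroup Rel) := by
  rw [← hsk, MonoidHom.mem_ker, Cfsg.Agent.Lib.TC.D.Fi24Chain.Main.s0_prodA l hl, he.neg_one_pow]

end Cfsg.Agent.Lib.Schur.Fi24Model
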