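import Mathlib
import Cfsg.Prelude.Def_KGroupFacts

set_option linter.dupNamespace false

/-!
# Central extensions given by bilinear cocycles

For a bilinear map `c : G → G → V`, the group `Heis c` is `G × V` with the multiplication
`(a, s) (b, t) = (a b, s + t + c a b)`.
-/

set_option autoImplicit false

universe u v

namespace Cfsg.Agent.Lib.Schur.BiExt

open Subgroup Cfsg
open scoped commutatorElement

/-- A bilinear map from a group to an abelian group. -/
structure Bichar (G : Type u) (V : Type v) [Group G] [AddCommGroup V] where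
  f : G → G → V
  mul_left : ∀ a b d, f (a * b) d = f a d + f b d
  mul_right : ∀ a b d, f a (b * d) = f a b + f a d

variable {G : Type u} {V : Type v} [Group G] [AddCommGroup V]

namespace Bichar

variable (c : Bichar G V)

theorem one_left (b : G) : c.f 1 b = 0 := by
  have := c.mul_left 1 1 b
  rw [mul_one] at this
  simpa using this

theorem one_right (a : G) : c.f a 1 = 0 := by
  have := c.mul_right a 1 1
  rw [mul_one] at this
  simpa using this

theorem inv_left (a b : G) : c.f a⁻¹ b = - c.f a b := by
  have := c.mul_left a⁻¹ a b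
  rw [inv_mul_cancel, one_left] at this
  exact eq_neg_of_add_eq_zero_left this.symm

theorem inv_right (a b : G) : c.f a b⁻¹ = - c.f a b := by
  have := c.mul_right a b⁻¹ b
  rw [inv_mul_cancel, one_right] at this
  exact eq_neg_of_add_eq_zero_left this.symm

end Bichar

/-- The group attached to a bilinear map. -/
structure Heis (c : Bichar G V) where
  fst : G
  snd : V

namespace Heis

variable {c : Bichar G V}

@[ext] theorem ext' {x y : Heis c} (h1 : x.fst = y.fst) (h2 : x.snd = y.snd) : x = y := by
  cases x; cases y; simp_all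

instance : Mul (Heis c) := ⟨fun x y => ⟨x.fst * y.fst, x.snd + y.snd + c.f x.fst y.fst⟩⟩
instance : One (Heis c) := ⟨⟨1, 0⟩⟩
instance : Inv (Heis c) := ⟨fun x => ⟨x.fst⁻¹, - x.snd - c.f x.fst x.fst⁻¹⟩⟩

instance : Group (Heis c) :=
  Group.ofLeftAxioms
    (by
      intro x y z
      apply ext'
      · exact mul_assoc _ _ _
      · show x.snd + y.snd + c.f x.fst y.fst + z.snd + c.f (x.fst * y.fst) z.fst
          = x.snd + (y.snd + z.snd + c.f y.fst z.fst) + c.f x.fst (y.fst * z.fst)
        rw [c.mul_left, c.mul_right]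
        abel)
    (by
      intro x
      apply ext'
      · exact one_mul _
      · show 0 + x.snd + c.f 1 x.fst = x.snd
        rw [c.one_left]
        abel)
    (by
      intro x
      apply ext'
      · exact inv_mul_cancel _
      · show - x.snd - c.f x.fst x.fst⁻¹ + x.snd + c.f x.fst⁻¹ x.fst = 0
        rw [c.inv_left, c.inv_right]
        abel)

@[simp] theorem mul_fst (x y : Heis c) : (x * y).fst = x.fst * y.fst := rfl
@[simp] theorem mul_snd (x y : Heis c) : (x * y).snd = x.snd + y.snd + c.f x.fst y.fst := rfl
@[simp] theorem one_fst : (1 : Heis c).fst = 1 := rfl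
@[simp] theorem one_snd : (1 : Heis c).snd = 0 := rfl
@[simp] theorem inv_fst (x : Heis c) : (x⁻¹).fst = x.fst⁻¹ := rfl
@[simp] theorem inv_snd (x : Heis c) : (x⁻¹).snd = - x.snd - c.f x.fst x.fst⁻¹ := rfl

/-- The projection. -/
def proj (c : Bichar G V) : Heis c →* G where
  toFun := fst
  map_one' := rfl
  map_mul' _ _ := rfl

@[simp] theorem proj_apply (x : Heis c) : proj c x = x.fst := rfl

theorem proj_surjective : Function.Surjective (proj c) := fun g => ⟨⟨g, 0⟩, rfl⟩

/-- The central copy of `V`. -/
def ofV (c : Bichar G V) : Multiplicative V →* Heis c where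
  toFun v := ⟨1, Multiplicative.toAdd v⟩
  map_one' := rfl
  map_mul' a b := by
    apply ext'
    · simp
    · simp [c.one_left]

@[simp] theorem ofV_fst (v : Multiplicative V) : (ofV c v).fst = 1 := rfl
@[simp] theorem ofV_snd (v : Multiplicative V) : (ofV c v).snd = Multiplicative.toAdd v := rfl

theorem mem_center_of {x : Heis c} (hx : x.fst ∈ center G) (h1 : ∀ g, c.f x.fst g = 0)
    (h2 : ∀ g, c.f g x.fst = 0) : x ∈ center (Heis c) := by
  rw [mem_center_iff]
  intro y
  apply ext'
  · exact (mem_center_iff.1 hx y.fst)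
  · simp [h1, h2, add_comm]

theorem ofV_mem_center (v : Multiplicative V) : ofV c v ∈ center (Heis c) :=
  mem_center_of (by simp) (fun g => by simp [c.one_left]) (fun g => by simp [c.one_right])

/-- The commutator of commuting elements of `G`, lifted. -/
theorem comm_lift {a b : G} (h : a * b = b * a) :
    ⁅(⟨a, 0⟩ : Heis c), (⟨b, 0⟩ : Heis c)⁆ = ofV c (Multiplicative.ofAdd (c.f a b - c.f b a)) := by
  rw [commutatorElement_def, mul_inv_eq_iff_eq_mul, mul_inv_eq_iff_eq_mul]
  apply ext'
  · show a * b = 1 * b * a
    rw [one_mul, h]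
  · show 0 + 0 + c.f a b = (c.f a b - c.f b a) + 0 + c.f 1 b + 0 + c.f (1 * b) a
    rw [c.one_left, one_mul]
    abel

/-- Multiples of a commutator value lie in the commutator subgroup. -/
theorem ofV_mem_commutator {a b : G} (h : a * b = b * a) (k : ℤ) :
    ofV c (Multiplicative.ofAdd (k • (c.f a b - c.f b a))) ∈ commutator (Heis c) := by
  have h1 : ofV c (Multiplicative.ofAdd (c.f a b - c.f b a)) ∈ commutator (Heis c) := by
    rw [← comm_lift h]
    exact Subgroup.commutator_mem_commutator (mem_top _) (mem_top _)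
  have h2 := Subgroup.zpow_mem _ h1 k
  rw [← map_zpow] at h2
  exact h2

/-- The equivalence of the central copy of `V` with the kernel of the projection. -/
noncomputable def kerEquiv (c : Bichar G V) : Multiplicative V ≃* (proj c).ker :=
  MulEquiv.ofBijective
    ((ofV c).codRestrict (proj c).ker (fun _ => rfl))
    ⟨by
      intro v w h
      have := congrArg (fun x : (proj c).ker => (x : Heis c).snd) h
      exact Multiplicative.toAdd.injective this,
     by
      rintro ⟨x, hx⟩
      refine ⟨Multiplicative.ofAdd x.snd, ?_⟩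
      apply Subtype.ext
      apply ext'
      · exact (show x.fst = 1 from hx).symm
      · rfl⟩

instance [Finite G] [Finite V] : Finite (Heis c) :=
  Finite.of_injective (fun x : Heis c => (x.fst, x.snd)) (fun x y h => by
    have h1 := congrArg Prod.fst h
    have h2 := congrArg Prod.snd h
    exact ext' h1 h2)

end Heis

/-- A finite cyclic kernel generated by `c₀` with `c₀ ^ n = 1` is an image of `ZMod n`. -/
theorem exists_surj_of_pow_eq_one {Γ : Type*} [Group Γ] [Finite Γ] (K : Subgroup Γ) {c₀ : Γ} {n : ℕ}
    [NeZero n] (hn : c₀ ^ n = 1) (hc : c₀ ∈ K) (hK : K ≤ zpowers c₀) :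
    ∃ π : Multiplicative (ZMod n) →* K, Function.Surjective π := by
  let g : Multiplicative (ZMod n) →* K := MonoidHom.mk'
    (fun x => ⟨c₀ ^ (Multiplicative.toAdd x).val, pow_mem hc _⟩) (by
      intro a b
      apply Subtype.ext
      show c₀ ^ (Multiplicative.toAdd a + Multiplicative.toAdd b).val = _
      rw [ZMod.val_add, ← pow_eq_pow_mod _ hn, pow_add]
      rfl)
  refine ⟨g, ?_⟩
  rintro ⟨k, hk⟩
  have h1 := hK hk
  rw [← mem_powers_iff_mem_zpowers] at h1
  obtain ⟨N, rfl⟩ := h1
  refine ⟨Multiplicative.ofAdd (N : ZMod n), ?_⟩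
  apply Subtype.ext
  show c₀ ^ ((N : ZMod n)).val = _
  rw [ZMod.val_natCast, ← pow_eq_pow_mod _ hn]

end Cfsg.Agent.Lib.Schur.BiExt
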