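import Mathlib
import Cfsg.Prelude.Def_KGroupFacts

/-!
# Hopf's construction of the Schur multiplier

For a surjection `π : F →* T` from a free group, `HopfN π = F ⧸ [ker π, F]` is a central extension of
`T` through which every central extension of `T` receives a map.  With `hopfM π` the intersection of
its kernel and its commutator subgroup:

* `exists_lift`: lifts of `HopfN π → T` along central extensions;
* `map_ker_inf_commutator`: the image of `hopfM` is `ker ξ ⊓ E'` for every central extension `ξ`;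
* `exists_compl`: complements of `hopfM` in the kernel;
* `cover_of_compl`: such a complement gives a finite stem extension with kernel `hopfM`;
* `hasSchur_iff`: `T` has multiplier `A` if and only if `A ≃* hopfM π`.
-/

set_option autoImplicit false

universe u v w

namespace Cfsg.Agent.Lib.Schur.Hopf

open Subgroup Cfsg
open scoped commutatorElement

section Basic

variable {F : Type u} [Group F] {T : Type v} [Group T]

/-- `[ker π, F]`. -/
abbrev hopfC (π : F →* T) : Subgroup F := ⁅π.ker, (⊤ : Subgroup F)⁆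

/-- The Hopf central extension `F / [ker π, F]`. -/
abbrev HopfN (π : F →* T) : Type u := F ⧸ hopfC π

theorem hopfC_le_ker (π : F →* T) : hopfC π ≤ π.ker :=
  Subgroup.commutator_le_left _ _

/-- The projection of the Hopf extension. -/
def hopfP (π : F →* T) : HopfN π →* T := QuotientGroup.lift (hopfC π) π (hopfC_le_ker π)

@[simp] theorem hopfP_mk (π : F →* T) (x : F) : hopfP π (x : HopfN π) = π x := rfl

theorem hopfP_surjective {π : F →* T} (hπ : Function.Surjective π) :
    Function.Surjective (hopfP π) := by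
  intro t
  obtain ⟨x, rfl⟩ := hπ t
  exact ⟨(x : HopfN π), rfl⟩

theorem ker_hopfP_le_center (π : F →* T) : (hopfP π).ker ≤ center (HopfN π) := by
  intro x hx
  obtain ⟨r, rfl⟩ := QuotientGroup.mk_surjective x
  rw [mem_center_iff]
  intro y
  obtain ⟨f, rfl⟩ := QuotientGroup.mk_surjective y
  have hr : r ∈ π.ker := hx
  have hc : ⁅r, f⁆ ∈ hopfC π := Subgroup.commutator_mem_commutator hr (Subgroup.mem_top f)
  have h1 : ((⁅r, f⁆ : F) : HopfN π) = 1 := (QuotientGroup.eq_one_iff _).2 hc
  have h2 : (r : HopfN π) * (f : HopfN π) * (r : HopfN π)⁻¹ * (f : HopfN π)⁻¹ = 1 := by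
    rw [← h1, commutatorElement_def]
    rfl
  have h3 : (r : HopfN π) * (f : HopfN π) = (f : HopfN π) * (r : HopfN π) := by
    have := mul_inv_eq_one.1 h2
    exact mul_inv_eq_iff_eq_mul.1 this
  exact h3.symm

/-- `hopfM π`: the kernel of the Hopf extension inside the commutator subgroup. -/
def hopfM (π : F →* T) : Subgroup (HopfN π) := (hopfP π).ker ⊓ commutator (HopfN π)

theorem hopfM_le_ker (π : F →* T) : hopfM π ≤ (hopfP π).ker := inf_le_left

theorem hopfM_le_commutator (π : F →* T) : hopfM π ≤ commutator (HopfN π) := inf_le_right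

theorem comm_mul_left_center {E : Type*} [Group E] {x z y : E} (hz : z ∈ center E) :
    ⁅x * z, y⁆ = ⁅x, y⁆ := by
  have : z * y = y * z := (mem_center_iff.1 hz y).symm
  simp only [commutatorElement_def, mul_inv_rev]
  calc x * z * y * (z⁻¹ * x⁻¹) * y⁻¹ = x * (z * y) * z⁻¹ * x⁻¹ * y⁻¹ := by group
    _ = x * (y * z) * z⁻¹ * x⁻¹ * y⁻¹ := by rw [this]
    _ = _ := by group

theorem comm_mul_right_center {E : Type*} [Group E] {x y w : E} (hw : w ∈ center E) :
    ⁅x, y * w⁆ = ⁅x, y⁆ := by
  have : w * x⁻¹ = x⁻¹ * w := (mem_center_iff.1 hw x⁻¹).symm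
  simp only [commutatorElement_def, mul_inv_rev]
  calc x * (y * w) * x⁻¹ * (w⁻¹ * y⁻¹) = x * y * (w * x⁻¹) * w⁻¹ * y⁻¹ := by group
    _ = x * y * (x⁻¹ * w) * w⁻¹ * y⁻¹ := by rw [this]
    _ = _ := by group

/-- The commutator subgroup of `E` is the image of that of `N` when `E` is generated by the image of
`N` and central elements. -/
theorem commutator_le_map {N : Type*} {E : Type*} [Group N] [Group E] (φ : N →* E)
    (h : ∀ e : E, ∃ n : N, (φ n)⁻¹ * e ∈ center E) :
    commutator E ≤ (commutator N).map φ := by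
  rw [_root_.commutator_def, _root_.commutator_def, Subgroup.map_commutator, Subgroup.commutator_le]
  intro a _ b _
  obtain ⟨a', ha'⟩ := h a
  obtain ⟨b', hb'⟩ := h b
  have ea : a = φ a' * ((φ a')⁻¹ * a) := by group
  have eb : b = φ b' * ((φ b')⁻¹ * b) := by group
  have hcomm : ⁅a, b⁆ = ⁅φ a', φ b'⁆ := by
    rw [ea, eb, comm_mul_left_center ha', comm_mul_right_center hb']
  rw [hcomm]
  exact Subgroup.commutator_mem_commutator
    (Subgroup.mem_map_of_mem φ (Subgroup.mem_top a')) (Subgroup.mem_map_of_mem φ (Subgroup.mem_top b'))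

theorem map_commutator_le {N : Type*} {E : Type*} [Group N] [Group E] (φ : N →* E) :
    (commutator N).map φ ≤ commutator E := by
  rw [_root_.commutator_def, _root_.commutator_def, Subgroup.map_commutator]
  exact Subgroup.commutator_mono le_top le_top

/-- General form: with `ξ` central, the image of `ker p ⊓ N'` under a lift `φ` is `ker ξ ⊓ E'`. -/
theorem map_ker_inf_commutator {N : Type*} {E : Type*} [Group N] [Group E]
    (p : N →* T) (ξ : E →* T) (φ : N →* E) (h : ξ.comp φ = p) (hp : Function.Surjective p)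
    (hc : ξ.ker ≤ center E) :
    (p.ker ⊓ commutator N).map φ = ξ.ker ⊓ commutator E := by
  have hξφ : ∀ n, ξ (φ n) = p n := fun n => by rw [← h]; rfl
  have hE : commutator E ≤ (commutator N).map φ := by
    apply commutator_le_map
    intro e
    obtain ⟨n, hn⟩ := hp (ξ e)
    refine ⟨n, hc ?_⟩
    rw [MonoidHom.mem_ker, map_mul, map_inv, hξφ, hn]
    simp
  apply le_antisymm
  · rintro _ ⟨n, hn, rfl⟩
    rw [SetLike.mem_coe, Subgroup.mem_inf] at hn
    rw [Subgroup.mem_inf, MonoidHom.mem_ker, hξφ]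
    exact ⟨hn.1, map_commutator_le φ (Subgroup.mem_map_of_mem φ hn.2)⟩
  · intro e he
    rw [Subgroup.mem_inf] at he
    obtain ⟨n, hn, rfl⟩ := hE he.2
    refine ⟨n, ?_, rfl⟩
    rw [SetLike.mem_coe, Subgroup.mem_inf]
    refine ⟨?_, hn⟩
    have h2 : ξ (φ n) = 1 := he.1
    rw [MonoidHom.mem_ker, ← hξφ, h2]

/-- Under a lift along a central extension, `hopfM` has image the `ker ξ ⊓ E'`. -/
theorem map_hopfM {E : Type*} [Group E] {π : F →* T} (hπ : Function.Surjective π)
    (ξ : E →* T) (φ : HopfN π →* E) (h : ξ.comp φ = hopfP π) (hc : ξ.ker ≤ center E) :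
    (hopfM π).map φ = ξ.ker ⊓ commutator E :=
  map_ker_inf_commutator (hopfP π) ξ φ h (hopfP_surjective hπ) hc

/-- Lift of a free group along a surjection. -/
theorem exists_free_lift [IsFreeGroup F] {E : Type w} [Group E] (ξ : E →* T)
    (hξ : Function.Surjective ξ) (π : F →* T) : ∃ φ : F →* E, ξ.comp φ = π := by
  choose s hs using hξ
  refine ⟨IsFreeGroup.lift (fun a => s (π (IsFreeGroup.of a))), ?_⟩
  apply IsFreeGroup.ext_hom
  intro a
  simp [hs]

/-- Lift of the Hopf extension along a central extension, over a homomorphism of the bases. -/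
theorem exists_lift_comp [IsFreeGroup F] {T₀ : Type*} [Group T₀] {E : Type w} [Group E]
    (ξ : E →* T₀) (hξ : Function.Surjective ξ) (hc : ξ.ker ≤ center E) (π : F →* T) (g : T →* T₀) :
    ∃ φ : HopfN π →* E, ξ.comp φ = g.comp (hopfP π) := by
  obtain ⟨φ₀, h₀⟩ := exists_free_lift ξ hξ (g.comp π)
  have hφ₀ : ∀ x, ξ (φ₀ x) = g (π x) := fun x => by
    have := congrArg (fun f => f x) h₀
    simpa using this
  have hle : hopfC π ≤ φ₀.ker := by
    rw [Subgroup.commutator_le]
    intro r hr f _
    rw [MonoidHom.mem_ker, map_commutatorElement, commutatorElement_eq_one_iff_mul_comm]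
    have : φ₀ r ∈ ξ.ker := by
      rw [MonoidHom.mem_ker, hφ₀]
      have hr' : π r = 1 := hr
      rw [hr', map_one]
    exact (mem_center_iff.1 (hc this) (φ₀ f)).symm
  refine ⟨QuotientGroup.lift (hopfC π) φ₀ hle, ?_⟩
  ext x
  simp [hφ₀]

/-- Lift of the Hopf extension along a central extension. -/
theorem exists_lift [IsFreeGroup F] {E : Type w} [Group E] (ξ : E →* T)
    (hξ : Function.Surjective ξ) (hc : ξ.ker ≤ center E) (π : F →* T) :
    ∃ φ : HopfN π →* E, ξ.comp φ = hopfP π := by
  obtain ⟨φ, h⟩ := exists_lift_comp ξ hξ hc π (MonoidHom.id T)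
  exact ⟨φ, by rw [h]; rfl⟩

/-- A lift along a stem extension is surjective. -/
theorem lift_surjective_of_stem {N : Type*} {E : Type*} [Group N] [Group E]
    (p : N →* T) (ξ : E →* T) (φ : N →* E) (h : ξ.comp φ = p) (hp : Function.Surjective p)
    (hξ : IsStemExtension ξ) : Function.Surjective φ := by
  have hξφ : ∀ n, ξ (φ n) = p n := fun n => by rw [← h]; rfl
  have hE : commutator E ≤ (commutator N).map φ := by
    apply commutator_le_map
    intro e
    obtain ⟨n, hn⟩ := hp (ξ e)
    refine ⟨n, hξ.2.1 ?_⟩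
    rw [MonoidHom.mem_ker, map_mul, map_inv, hξφ, hn]
    simp
  intro e
  obtain ⟨n, hn⟩ := hp (ξ e)
  have hk : (φ n)⁻¹ * e ∈ ξ.ker := by
    rw [MonoidHom.mem_ker, map_mul, map_inv, hξφ, hn]
    simp
  obtain ⟨m, _, hm⟩ := hE (hξ.2.2 hk)
  refine ⟨n * m, ?_⟩
  rw [map_mul, hm]
  group

/-- Schur's theorem, in the form: a central extension of a finite group has finite commutator
subgroup. -/
theorem finite_commutator_of_central_ext {N : Type*} [Group N] (p : N →* T)
    (hp : Function.Surjective p) (hc : p.ker ≤ center N) [Finite T] :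
    Finite (commutator N) := by
  choose s hs using hp
  have hcen : ∀ a : N, (s (p a))⁻¹ * a ∈ center N := by
    intro a
    apply hc
    rw [MonoidHom.mem_ker, map_mul, map_inv, hs]
    simp
  have hsurj : Function.Surjective
      (fun q : T × T => (⟨⁅s q.1, s q.2⁆, ⟨s q.1, s q.2, rfl⟩⟩ : commutatorSet N)) := by
    rintro ⟨_, a, b, rfl⟩
    refine ⟨(p a, p b), ?_⟩
    apply Subtype.ext
    show ⁅s (p a), s (p b)⁆ = ⁅a, b⁆
    have ea : a = s (p a) * ((s (p a))⁻¹ * a) := by group
    have eb : b = s (p b) * ((s (p b))⁻¹ * b) := by group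
    conv_rhs => rw [ea, eb, comm_mul_left_center (hcen a), comm_mul_right_center (hcen b)]
  have : Finite (commutatorSet N) := Finite.of_surjective _ hsurj
  infer_instance

/-- A subgroup of the center is normal. -/
theorem normal_of_le_center' {N : Type*} [Group N] {S : Subgroup N} (hS : S ≤ center N) : S.Normal := by
  refine ⟨fun x hx g => ?_⟩
  have : g * x = x * g := (mem_center_iff.1 (hS hx) g)
  rw [this]
  simpa using hx

/-- Finite stem extension from a complement of `ker p ⊓ N'` in `ker p`. -/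
theorem cover_of_compl {N : Type*} [Group N] (p : N →* T) (hp : Function.Surjective p)
    (hc : p.ker ≤ center N) [Finite T] (S : Subgroup N) [S.Normal] (hS : S ≤ p.ker)
    (h1 : S ⊓ (p.ker ⊓ commutator N) = ⊥) (h2 : S ⊔ (p.ker ⊓ commutator N) = p.ker) :
    ∃ σ : (N ⧸ S) →* T, (∀ x : N, σ (x : N ⧸ S) = p x) ∧ Finite (N ⧸ S) ∧ IsStemExtension σ ∧
      Nonempty (↥(p.ker ⊓ commutator N) ≃* σ.ker) := by
  let σ : (N ⧸ S) →* T := QuotientGroup.lift S p hS
  have hσ : ∀ x : N, σ (x : N ⧸ S) = p x := fun _ => rfl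
  have hσs : Function.Surjective σ := by
    intro t
    obtain ⟨x, rfl⟩ := hp t
    exact ⟨(x : N ⧸ S), rfl⟩
  have hker : ∀ x : N, (x : N ⧸ S) ∈ σ.ker ↔ x ∈ p.ker := by
    intro x
    rw [MonoidHom.mem_ker, MonoidHom.mem_ker, hσ]
  -- decomposition of elements of the kernel
  have hdec : ∀ x ∈ p.ker, ∃ m ∈ p.ker ⊓ commutator N, (x : N ⧸ S) = (m : N ⧸ S) := by
    intro x hx
    rw [← h2, mem_sup_of_normal_left] at hx
    obtain ⟨s, hs, m, hm, rfl⟩ := hx
    refine ⟨m, hm, ?_⟩
    rw [QuotientGroup.mk_mul, (QuotientGroup.eq_one_iff s).2 hs, one_mul]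
  let f : ↥(p.ker ⊓ commutator N) →* σ.ker :=
    ((QuotientGroup.mk' S).comp (p.ker ⊓ commutator N).subtype).codRestrict σ.ker (by
      rintro ⟨m, hm⟩
      exact (hker m).2 hm.1)
  have hfb : Function.Bijective f := by
    constructor
    · rw [injective_iff_map_eq_one]
      rintro ⟨m, hm⟩ hfm
      have h3 : (m : N ⧸ S) = 1 := congrArg Subtype.val hfm
      have h4 : m ∈ S := (QuotientGroup.eq_one_iff m).1 h3
      have h5 : m ∈ S ⊓ (p.ker ⊓ commutator N) := ⟨h4, hm⟩
      rw [h1, Subgroup.mem_bot] at h5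
      exact Subtype.ext h5
    · rintro ⟨k, hk⟩
      obtain ⟨x, rfl⟩ := QuotientGroup.mk_surjective k
      obtain ⟨m, hm, hxm⟩ := hdec x ((hker x).1 hk)
      exact ⟨⟨m, hm⟩, Subtype.ext hxm.symm⟩
  let e := MulEquiv.ofBijective f hfb
  refine ⟨σ, hσ, ?_, ⟨hσs, ?_, ?_⟩, ⟨e⟩⟩
  · have hfinM : Finite ↥(p.ker ⊓ commutator N) := by
      have := finite_commutator_of_central_ext p hp hc
      exact Finite.of_injective (Subgroup.inclusion (inf_le_right : p.ker ⊓ commutator N ≤ commutator N))
        (Subgroup.inclusion_injective _)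
    have hfinK : Finite σ.ker := Finite.of_equiv _ e.toEquiv
    have hfinQ : Finite ((N ⧸ S) ⧸ σ.ker) :=
      Finite.of_equiv _ (QuotientGroup.quotientKerEquivOfSurjective σ hσs).symm.toEquiv
    exact Finite.of_subgroup_quotient σ.ker
  · intro k hk
    obtain ⟨x, rfl⟩ := QuotientGroup.mk_surjective k
    have hx := (hker x).1 hk
    rw [mem_center_iff]
    intro y
    obtain ⟨y', rfl⟩ := QuotientGroup.mk_surjective y
    have := mem_center_iff.1 (hc hx) y'
    rw [← QuotientGroup.mk_mul, ← QuotientGroup.mk_mul, this]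
  · intro k hk
    obtain ⟨x, rfl⟩ := QuotientGroup.mk_surjective k
    obtain ⟨m, hm, hxm⟩ := hdec x ((hker x).1 hk)
    rw [hxm]
    exact map_commutator_le (QuotientGroup.mk' S) (Subgroup.mem_map_of_mem _ hm.2)

/-- A section over a free abelian group of a surjection from a commutative group. -/
theorem exists_section_of_free {A L : Type*} [Group A] [CommGroup L] (hA : ∀ a b : A, a * b = b * a)
    [Module.Free ℤ (Additive L)] (f : A →* L) (hf : Function.Surjective f) :
    ∃ s : L →* A, ∀ l, f (s l) = l := by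
  let _ : CommGroup A := { (inferInstance : Group A) with mul_comm := hA }
  let g : Additive A →ₗ[ℤ] Additive L := (MonoidHom.toAdditive f).toIntLinearMap
  have hg : Function.Surjective g := fun l => by
    obtain ⟨a, ha⟩ := hf (Additive.toMul l)
    exact ⟨Additive.ofMul a, congrArg Additive.ofMul ha⟩
  obtain ⟨h, hh⟩ := Module.projective_lifting_property g LinearMap.id hg
  refine ⟨MonoidHom.toAdditive.symm h.toAddMonoidHom, fun l => ?_⟩
  exact congrArg Additive.toMul (LinearMap.congr_fun hh (Additive.ofMul l))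

/-- A finitely generated subgroup of the abelianization of a free group is free. -/
theorem free_of_fg {F' : Type*} [Group F'] [IsFreeGroup F'] (L : Subgroup (Abelianization F'))
    (hL : Group.FG L) : Module.Free ℤ (Additive L) := by
  have hfin : Module.Finite ℤ (Additive L) := by
    rw [Module.Finite.iff_addGroup_fg]
    exact GroupFG.iff_add_fg.1 hL
  let e : Abelianization F' ≃* Abelianization (FreeGroup (IsFreeGroup.Generators F')) :=
    (IsFreeGroup.toFreeGroup F').abelianizationCongr
  let j : Additive L →+ FreeAbelianGroup (IsFreeGroup.Generators F') :=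
    MonoidHom.toAdditive (e.toMonoidHom.comp L.subtype)
  have hj : Function.Injective j := by
    intro a b hab
    apply Additive.toMul.injective
    apply Subtype.ext
    exact e.injective (Additive.ofMul.injective hab)
  have htf : Module.IsTorsionFree ℤ (Additive L) :=
    hj.moduleIsTorsionFree _ (fun n a => map_zsmul j n a)
  exact Module.free_of_finite_type_torsion_free'

/-- The map from the Hopf extension to the abelianization of `F`. -/
def hopfQ (π : F →* T) : HopfN π →* Abelianization F :=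
  QuotientGroup.lift (hopfC π) Abelianization.of (by
    rw [Abelianization.ker_of]
    exact Subgroup.commutator_mono le_top le_top)

@[simp] theorem hopfQ_mk (π : F →* T) (x : F) : hopfQ π (x : HopfN π) = Abelianization.of x := rfl

theorem ker_hopfQ (π : F →* T) : (hopfQ π).ker = commutator (HopfN π) := by
  apply le_antisymm
  · intro x hx
    obtain ⟨f, rfl⟩ := QuotientGroup.mk_surjective x
    have h1 : f ∈ (Abelianization.of (G := F)).ker := hx
    rw [Abelianization.ker_of] at h1
    exact map_commutator_le (QuotientGroup.mk' (hopfC π)) (Subgroup.mem_map_of_mem _ h1)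
  · exact Abelianization.commutator_subset_ker (hopfQ π)

/-- Complements of `hopfM` in the kernel, inside any subgroup `K` with `K · hopfM = ker`. -/
theorem exists_compl [IsFreeGroup F] [Group.FG F] [Finite T] (π : F →* T)
    (K : Subgroup (HopfN π)) (hK : K ≤ (hopfP π).ker) (hKM : K ⊔ hopfM π = (hopfP π).ker) :
    ∃ S : Subgroup (HopfN π), S ≤ K ∧ S ⊓ hopfM π = ⊥ ∧ S ⊔ hopfM π = (hopfP π).ker := by
  let q := hopfQ π
  have hMq : (hopfM π).map q = ⊥ := by
    rw [Subgroup.map_eq_bot_iff, ker_hopfQ]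
    exact hopfM_le_commutator π
  have hL : K.map q = ((hopfP π).ker).map q := by
    rw [← hKM, Subgroup.map_sup, hMq, sup_bot_eq]
  have hfg : Group.FG ↥(K.map q) := by
    rw [hL]
    have h1 : ((hopfP π).ker).FiniteIndex := finiteIndex_ker (hopfP π)
    have h2 : Group.FG ↥(hopfP π).ker := Subgroup.fg_of_index_ne_zero _
    exact Group.fg_of_surjective (q.subgroupMap_surjective (hopfP π).ker)
  have hfree : Module.Free ℤ (Additive ↥(K.map q)) := free_of_fg _ hfg
  have hKc : ∀ a b : K, a * b = b * a := by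
    intro a b
    apply Subtype.ext
    exact (mem_center_iff.1 (ker_hopfP_le_center π (hK a.2)) (b : HopfN π)).symm
  obtain ⟨s, hs⟩ := exists_section_of_free hKc (q.subgroupMap K) (q.subgroupMap_surjective K)
  have hs' : ∀ l : ↥(K.map q), q ((s l : K) : HopfN π) = l := fun l =>
    congrArg Subtype.val (hs l)
  refine ⟨(K.subtype.comp s).range, ?_, ?_, ?_⟩
  · rintro _ ⟨l, rfl⟩
    exact (s l).2
  · rw [eq_bot_iff]
    rintro x ⟨⟨l, hl⟩, hxM⟩
    have hx : x = ((s l : K) : HopfN π) := hl.symm
    have h0 : q x = 1 := by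
      have : x ∈ q.ker := by
        rw [ker_hopfQ]
        exact hopfM_le_commutator π hxM
      exact this
    have hl1 : l = 1 := by
      apply Subtype.ext
      rw [← hs' l, ← hx, h0]
      rfl
    rw [Subgroup.mem_bot, hx, hl1, map_one]
    rfl
  · apply le_antisymm
    · apply sup_le
      · rintro _ ⟨l, rfl⟩
        exact hK (s l).2
      · exact hopfM_le_ker π
    · intro r hr
      have hqr : q r ∈ K.map q := by
        rw [hL]
        exact Subgroup.mem_map_of_mem q hr
      let x : HopfN π := ((s ⟨q r, hqr⟩ : K) : HopfN π)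
      have hxq : q x = q r := hs' ⟨q r, hqr⟩
      have hm : x⁻¹ * r ∈ hopfM π := by
        rw [hopfM, Subgroup.mem_inf]
        refine ⟨?_, ?_⟩
        · exact mul_mem (inv_mem (hK (s ⟨q r, hqr⟩).2)) hr
        · rw [← ker_hopfQ, MonoidHom.mem_ker]
          show q (x⁻¹ * r) = 1
          rw [map_mul, map_inv, hxq, inv_mul_cancel]
      have hr' : r = x * (x⁻¹ * r) := by group
      rw [hr']
      exact Subgroup.mul_mem_sup ⟨⟨q r, hqr⟩, rfl⟩ hm

/-- `hopfM` is finite. -/
theorem finite_hopfM [Finite T] {π : F →* T} (hπ : Function.Surjective π) : Finite (hopfM π) := by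
  have := finite_commutator_of_central_ext (hopfP π) (hopfP_surjective hπ) (ker_hopfP_le_center π)
  exact Finite.of_injective (Subgroup.inclusion (hopfM_le_commutator π))
    (Subgroup.inclusion_injective _)

/-- The existence of a finite stem extension with kernel `hopfM`. -/
theorem exists_stem [IsFreeGroup F] [Group.FG F] [Finite T] {π : F →* T}
    (hπ : Function.Surjective π) :
    ∃ (Γ : Type u) (_ : Group Γ) (_ : Finite Γ) (σ : Γ →* T), IsStemExtension σ ∧
      Nonempty (hopfM π ≃* σ.ker) := by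
  obtain ⟨S, hSK, h1, h2⟩ := exists_compl π ((hopfP π).ker) le_rfl (sup_eq_left.2 (hopfM_le_ker π))
  have hSc : S ≤ center (HopfN π) := hSK.trans (ker_hopfP_le_center π)
  have hSn : S.Normal := normal_of_le_center' hSc
  obtain ⟨σ, _, hfin, hst, he⟩ := cover_of_compl (hopfP π) (hopfP_surjective hπ)
    (ker_hopfP_le_center π) S hSK h1 h2
  exact ⟨HopfN π ⧸ S, inferInstance, hfin, σ, hst, he⟩

/-- The universal map attached to a stem extension. -/
theorem exists_map_of_stem [IsFreeGroup F] {π : F →* T} (hπ : Function.Surjective π)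
    {Γ : Type w} [Group Γ] (σ : Γ →* T) (hσ : IsStemExtension σ) :
    ∃ ψ : HopfN π →* Γ, σ.comp ψ = hopfP π ∧ Function.Surjective ψ ∧
      (hopfM π).map ψ = σ.ker := by
  obtain ⟨ψ, hψ⟩ := exists_lift σ hσ.1 hσ.2.1 π
  refine ⟨ψ, hψ, lift_surjective_of_stem _ σ ψ hψ (hopfP_surjective hπ) hσ, ?_⟩
  rw [map_hopfM hπ σ ψ hψ hσ.2.1]
  exact inf_eq_left.2 hσ.2.2

/-- `hopfM` surjects onto the kernel of any stem extension. -/
theorem exists_surj_of_stem [IsFreeGroup F] {π : F →* T} (hπ : Function.Surjective π)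
    {Γ : Type w} [Group Γ] (σ : Γ →* T) (hσ : IsStemExtension σ) :
    ∃ f : hopfM π →* σ.ker, Function.Surjective f := by
  obtain ⟨ψ, _, _, hm⟩ := exists_map_of_stem hπ σ hσ
  have h1 : ∀ x : hopfM π, ψ x ∈ σ.ker := fun x => by
    rw [← hm]
    exact Subgroup.mem_map_of_mem ψ x.2
  refine ⟨(ψ.comp (hopfM π).subtype).codRestrict σ.ker h1, ?_⟩
  rintro ⟨k, hk⟩
  rw [← hm] at hk
  obtain ⟨x, hx, rfl⟩ := hk
  exact ⟨⟨x, hx⟩, rfl⟩

/-- A multiplier of `T` is isomorphic to `hopfM`. -/
theorem nonempty_equiv_of_hasSchur {T : Type u} [Group T] {π : F →* T} [IsFreeGroup F] [Group.FG F]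
    [Finite T] (hπ : Function.Surjective π) {A : Type*} [CommGroup A]
    (h : HasSchurMultiplier T A) : Nonempty (A ≃* hopfM π) := by
  obtain ⟨⟨Γ₀, _, _, σ₀, hσ₀, ⟨e₀⟩⟩, h2⟩ := h
  obtain ⟨Γ₁, _, _, σ₁, hσ₁, ⟨e₁⟩⟩ := exists_stem hπ
  obtain ⟨f₀, hf₀⟩ := exists_surj_of_stem hπ σ₀ hσ₀
  obtain ⟨f₁, hf₁⟩ := h2 Γ₁ σ₁ hσ₁
  have hfinM := finite_hopfM hπ
  have hfinA : Finite A := Finite.of_surjective _ (e₀.toEquiv.surjective.comp hf₀)
  let g : A →* hopfM π := e₁.symm.toMonoidHom.comp f₁
  have hg : Function.Surjective g := e₁.symm.surjective.comp hf₁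
  have hg' : hopfM π →* A := e₀.toMonoidHom.comp f₀
  have hg'' : Function.Surjective (e₀.toMonoidHom.comp f₀) := e₀.surjective.comp hf₀
  have hc1 : Nat.card (hopfM π) ≤ Nat.card A := Nat.card_le_card_of_surjective _ hg
  have hc2 : Nat.card A ≤ Nat.card (hopfM π) := Nat.card_le_card_of_surjective _ hg''
  have hb : Function.Bijective g :=
    (Nat.bijective_iff_surjective_and_card g).2 ⟨hg, le_antisymm hc1 hc2 ▸ rfl⟩
  exact ⟨MulEquiv.ofBijective g hb⟩

/-- An isomorph of `hopfM` is a multiplier of `T`. -/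
theorem hasSchur_of_equiv {T : Type u} [Group T] {F : Type u} [Group F] {π : F →* T} [IsFreeGroup F]
    [Group.FG F] [Finite T] (hπ : Function.Surjective π) {A : Type*} [CommGroup A]
    (e : A ≃* hopfM π) : HasSchurMultiplier T A := by
  constructor
  · obtain ⟨Γ₁, i1, i2, σ₁, hσ₁, ⟨e₁⟩⟩ := exists_stem hπ
    exact ⟨Γ₁, i1, i2, σ₁, hσ₁, ⟨e₁.symm.trans e.symm⟩⟩
  · intro Γ _ _ σ hσ
    obtain ⟨f, hf⟩ := exists_surj_of_stem hπ σ hσ
    exact ⟨f.comp e.toMonoidHom, hf.comp e.surjective⟩

end Basic

section Free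

variable (T : Type u) [Group T]

/-- The canonical free presentation of `T`. -/
def freePres : FreeGroup T →* T := FreeGroup.lift id

theorem freePres_surjective : Function.Surjective (freePres T) := fun t =>
  ⟨FreeGroup.of t, by simp [freePres]⟩

end Free

section Perfect

variable {G : Type*} [Group G]

/-- Two homomorphisms from a perfect group that agree modulo the center coincide. -/
theorem eq_of_perfect {X : Type*} [Group X] (hG : Group.IsPerfect G) (η₁ η₂ : G →* X)
    (h : ∀ g, (η₂ g)⁻¹ * η₁ g ∈ center X) : η₁ = η₂ := by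
  have hle : commutator G ≤ MonoidHom.eqLocus η₁ η₂ := by
    rw [_root_.commutator_def, Subgroup.commutator_le]
    intro a _ b _
    show η₁ ⁅a, b⁆ = η₂ ⁅a, b⁆
    rw [map_commutatorElement, map_commutatorElement]
    have ea : η₁ a = η₂ a * ((η₂ a)⁻¹ * η₁ a) := by group
    have eb : η₁ b = η₂ b * ((η₂ b)⁻¹ * η₁ b) := by group
    rw [ea, eb, comm_mul_left_center (h a), comm_mul_right_center (h b)]
  have htop : MonoidHom.eqLocus η₁ η₂ = ⊤ := by
    rw [eq_top_iff]
    have : commutator G = ⊤ := hG.commutator_eq_top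
    rw [← this]
    exact hle
  ext g
  have : g ∈ MonoidHom.eqLocus η₁ η₂ := by rw [htop]; trivial
  exact this

end Perfect

end Cfsg.Agent.Lib.Schur.Hopf
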