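import Cfsg.Agent.Lib.Schur.PcBase

/-!
# Tail certificates for a subgroup of a group given by a table of permutations

The same as `PcBase.card_ker_dvd`, for a stem extension of a subgroup `H` containing the products of the words of the
certificate.
-/

set_option autoImplicit false

namespace Cfsg.Agent.Lib.Schur.PcBaseSub

open Subgroup Cfsg Cfsg.Agent.Lib.Schur.PcCert Cfsg.Agent.Lib.Schur.PcGroup Cfsg.Agent.Lib.Schur.PcMain
open Cfsg.Agent.Lib.Schur.PcBase
open Cfsg.Agent.Lib.TC.Core Cfsg.Agent.Lib.TC.Perm Cfsg.Agent.Lib.TC.Pres Cfsg.Agent.Lib.TC.Main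
open Cfsg.Agent.Lib.TC.Iso Cfsg.Agent.Lib.TC.Chain
open Cfsg.Agent.Lib.PermComp.Core (ifB ifB_eq_true allL allL_eq_true)

section Main

variable {G : Type*} [Group G] {P : PT} {E : Nat → G} {kk : Nat} {base : List Nat}
  {φ : G →* Equiv.Perm (Fin P.n)}

lemma coe_wEval {H : Subgroup G} (e' : Nat → H) (u : List Nat) :
    ((wEval e' u : H) : G) = wEval (fun l => (e' l : G)) u := by
  induction u with
  | nil => simp [wEval]
  | cons a u ih =>
    rw [wEval_cons, wEval_cons, Subgroup.coe_mul, ih]

/-- The main theorem of this file. -/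
theorem card_ker_dvd_sub (M : Model P E kk base φ) (c : PcMain.Cert) (hc : c.check = true)
    (wE wY : List (List Nat)) (lv : List (Nat × List (List Nat)))
    (hwE : ∀ l ∈ wE, ∀ z ∈ l, z < kk) (hwY : ∀ l ∈ wY, ∀ z ∈ l, z < kk)
    (hrules : chkRules P c wE base = true)
    (hitems : ∀ f < c.items.length, chkItem P c wE wY base f = true)
    (hlev : chkLev P wE [] lv = true)
    (hlvn : ∀ t ∈ lv, ∀ u ∈ t.2, ∀ y ∈ u, y < c.n)
    (hprod : (lv.map fun t => t.2.length).prod = c.p ^ c.n)
    {H : Subgroup G} (hEv : ∀ l : List Nat, (∀ z ∈ l, z < kk) → Even l.length → prodA E l ∈ H)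
    (hwEe : ∀ l ∈ wE, Even l.length) (hwYe : ∀ l ∈ wY, Even l.length)
    {Γ : Type*} [Group Γ] {p : Nat} [Fact p.Prime] (hpc : c.p = p) [Finite Γ] {σ : Γ →* H}
    (hσ : IsStemExtension σ) {m : Nat}
    (hG : Nat.card H = c.p ^ c.n * m) (hm : ¬ p ∣ m) (Pp : Sylow p Γ) :
    Nat.card (σ.subgroupMap (Pp : Subgroup Γ)).ker ∣ c.zm := by
  classical
  have hfinH : Finite H := Finite.of_surjective σ hσ.1
  let e : Nat → G := fun l => prodA E (wE.getD l [])
  let y : Nat → G := fun f => prodA E (wY.getD f [])
  have hexp : ∀ u, prodA E (expand wE u) = wEval e u := fun u => prodA_expand E wE u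
  have hexplt := expand_lt hwE
  have hEwE : ∀ a, ∀ z ∈ wE.getD a [], z < kk := getD_lt hwE
  have hEwY : ∀ a, ∀ z ∈ wY.getD a [], z < kk := getD_lt hwY
  have happ : ∀ {u v : List Nat}, (∀ z ∈ u, z < kk) → (∀ z ∈ v, z < kk) → ∀ z ∈ u ++ v, z < kk := by
    intro u v hu hv z hz
    rcases List.mem_append.1 hz with h | h
    · exact hu z h
    · exact hv z h
  have hrules' := (allL_eq_true _ _).1 hrules
  -- rule identities
  have he1 : ∀ j i, i < j → j < c.n → e j * e i = wEval e (i :: c.rule j i) := by
    intro j i hij hj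
    have h1 := hrules' j (List.mem_range.2 hj)
    rw [ifB_eq_true] at h1
    have h2 := (allL_eq_true _ _).1 h1.2 i (List.mem_range.2 hij)
    have h3 := M.eq_of_base (happ (hEwE i) (hEwE j)) (hexplt (i :: c.rule j i)) (eqB_spec h2)
    rw [prodA_append, hexp] at h3
    exact h3
  have he2 : ∀ i, i < c.n → e i ^ c.p = wEval e (c.rule i i) := by
    intro i hi
    have h1 := hrules' i (List.mem_range.2 hi)
    rw [ifB_eq_true] at h1
    have h3 := M.eq_of_base (hexplt _) (hexplt _) (eqB_spec h1.1)
    rw [hexp, hexp, wEval_replicate] at h3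
    exact h3
  have hf : ∀ f l, (y f)⁻¹ * wEval e (c.lett f l) * y f = wEval e (c.letb f l) := by
    intro f l
    by_cases hff : f < c.items.length
    · have hit := hitems f hff
      rw [chkItem, ifB_eq_true] at hit
      have h1' := Nat.eq_of_beq_eq_true hit.1
      by_cases hl : l < (c.items.getD f ([], [])).1.length
      · have h4 := (allL_eq_true _ _).1 hit.2 l (List.mem_range.2 hl)
        have h5 := M.eq_of_base (happ (hEwY f) (hexplt _)) (happ (hexplt _) (hEwY f)) (eqB_spec h4)
        rw [prodA_append, prodA_append, hexp, hexp] at h5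
        rw [mul_assoc, inv_mul_eq_iff_eq_mul]
        exact h5
      · have e1 : c.lett f l = [] := by
          rw [Cert.lett, List.getD_eq_default _ _ (by omega)]
        have e2 : c.letb f l = [] := by
          rw [Cert.letb, List.getD_eq_default _ _ (by omega)]
        rw [e1, e2]
        simp
    · have e1 : c.lett f l = [] := by
        rw [Cert.lett, List.getD_eq_default c.items _ (by omega)]
        simp
      have e2 : c.letb f l = [] := by
        rw [Cert.letb, List.getD_eq_default c.items _ (by omega)]
        simp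
      rw [e1, e2]
      simp
  -- the elements of the subgroup
  have hevenD : ∀ {wL : List (List Nat)}, (∀ l ∈ wL, Even l.length) → ∀ a, Even (wL.getD a []).length := by
    intro wL h a
    by_cases ha : a < wL.length
    · rw [List.getD_eq_getElem _ _ ha]
      exact h _ (List.getElem_mem ha)
    · rw [List.getD_eq_default _ _ (by omega)]
      simp
  have hinE : ∀ l, e l ∈ H := fun l => hEv _ (hEwE l) (hevenD hwEe l)
  have hinY : ∀ f, y f ∈ H := fun f => hEv _ (hEwY f) (hevenD hwYe f)
  let e' : Nat → H := fun l => ⟨e l, hinE l⟩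
  let y' : Nat → H := fun f => ⟨y f, hinY f⟩
  have hcoe : ∀ u, ((wEval e' u : H) : G) = wEval e u := fun u => coe_wEval e' u
  have he1' : ∀ j i, i < j → j < c.n → e' j * e' i = wEval e' (i :: c.rule j i) := by
    intro j i hij hj
    apply Subtype.ext
    rw [hcoe, Subgroup.coe_mul]
    exact he1 j i hij hj
  have he2' : ∀ i, i < c.n → e' i ^ c.p = wEval e' (c.rule i i) := by
    intro i hi
    apply Subtype.ext
    rw [hcoe, Subgroup.coe_pow]
    exact he2 i hi
  have hf' : ∀ f l, (y' f)⁻¹ * wEval e' (c.lett f l) * y' f = wEval e' (c.letb f l) := by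
    intro f l
    apply Subtype.ext
    rw [hcoe, Subgroup.coe_mul, Subgroup.coe_mul, hcoe, Subgroup.coe_inv]
    exact hf f l
  let φ' : H →* Equiv.Perm (Fin P.n) := φ.comp H.subtype
  -- the size of the subgroup
  have hcard : c.p ^ c.n ≤ Nat.card (chain e' c.n ⊥ 0) := by
    set Q : Subgroup H := chain e' c.n ⊥ 0 with hQ
    have hmemw : ∀ u : List Nat, (∀ y ∈ u, y < c.n) → wEval e' u ∈ Q := by
      intro u hu
      refine wEval_mem_chain e' c.n ⊥ fun y hy => ?_
      exact ⟨Nat.zero_le _, hu y hy⟩
    -- the levels as elements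
    have key : ∀ (lv : List (Nat × List (List Nat))) (prev : List Nat), (∀ t ∈ lv, ∀ u ∈ t.2, ∀ y ∈ u, y < c.n) →
        chkLev P wE prev lv = true →
        (lv.map fun t => t.2.length).prod ≤ Nat.card (Kp φ' Q prev) := by
      intro lv
      induction lv with
      | nil =>
        intro prev _ _
        have hle : Kp φ' Q prev ≤ Q := by intro _ h; exact h.1
        have : Finite (Kp φ' Q prev) := Finite.of_injective (Subgroup.inclusion hle) (Subgroup.inclusion_injective _)
        exact Nat.card_pos
      | cons t ls ih =>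
        intro prev hl h
        rw [chkLev, ifB_eq_true, ifB_eq_true, ifB_eq_true] at h
        obtain ⟨h1, h2, h3, h4⟩ := h
        have htn : t.1 < P.n := Nat.le_of_ble_eq_true h1
        have hih := ih (t.1 :: prev) (fun s hs => hl s (by simp [hs])) h4
        let a : Fin P.n := ⟨t.1, htn⟩
        let T : List H := t.2.map (wEval e')
        have hval' : ∀ u : List Nat, ∀ i : Fin P.n, ((φ' (wEval e' u) i : Fin P.n) : Nat) = P.val (expand wE u) i.1 := by
          intro u i
          have h9 : φ' (wEval e' u) = φ (wEval e u) := by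
            show φ ((wEval e' u : H) : G) = _
            rw [hcoe]
          rw [h9, ← hexp]
          exact M.hval _ (hexplt u) i
        have hT : ∀ s ∈ T, s ∈ Kp φ' Q prev := by
          intro s hs
          obtain ⟨u, hu, rfl⟩ := List.mem_map.1 hs
          refine ⟨hmemw u (hl t (by simp) u hu), fun b hb => ?_⟩
          apply Fin.ext
          rw [hval']
          have h5 := (allL_eq_true _ _).1 ((allL_eq_true _ _).1 h2 u hu) b.1 hb
          rw [eqAt, PT.walk_eq, PT.walk_eq] at h5
          exact Nat.eq_of_beq_eq_true h5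
        have hinj : (T.map fun s => (φ' s a : Fin P.n).1).Nodup := by
          have h5 := incL_pairwise h3
          have h6 : (t.2.map fun u => Nat.succ (P.val (expand wE u) t.1)) =
              (T.map fun s => (φ' s a : Fin P.n).1).map Nat.succ := by
            simp only [T, List.map_map]
            refine List.map_congr_left fun u _ => ?_
            simp only [Function.comp]
            rw [hval' u a]
          rw [h6] at h5
          have h7 : ((T.map fun s => (φ' s a : Fin P.n).1).map Nat.succ).Nodup := h5.imp (fun h => h.ne)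
          exact List.Nodup.of_map _ h7
        have h8 := card_step_le φ' Q a T hT hinj
        have hT' : T.length = t.2.length := by simp [T]
        rw [hT'] at h8
        simp only [List.map_cons, List.prod_cons]
        exact le_trans (Nat.mul_le_mul_left _ hih) h8
    have h10 := key lv [] hlvn hlev
    rw [hprod] at h10
    have h11 : Nat.card (Kp φ' Q []) ≤ Nat.card Q := by
      have hle : Kp φ' Q [] ≤ Q := by intro _ h; exact h.1
      exact Nat.card_le_card_of_injective (Subgroup.inclusion hle) (Subgroup.inclusion_injective _)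
    exact le_trans h10 h11
  exact card_ker_sylow_dvd c hc hpc hσ e' y' he1' he2' hf' hcard hG hm Pp

end Main

end Cfsg.Agent.Lib.Schur.PcBaseSub
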