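import Cfsg.Agent.Lib.Schur.PcGolay

/-!
# Cyclic kernels from tail certificates

The certificates of `PcMain` bound the kernel of a Sylow subgroup by a cyclic group: the variants of
`PcMain.card_ker_sylow_dvd` and `PcGolay.card_ker_dvd` keeping this information, and their use for
multipliers that are not of squarefree order.
-/

set_option autoImplicit false

namespace Cfsg.Agent.Lib.Schur.PcCyc

open Cfsg Subgroup Cfsg.Agent.Lib.Schur.PcCert Cfsg.Agent.Lib.Schur.PcGroup Cfsg.Agent.Lib.Schur.PcMain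
open Cfsg.Agent.Lib.Golay.Core Cfsg.Agent.Lib.Golay.Perm Cfsg.Agent.Lib.Golay.M12
open Cfsg.Agent.Lib.Schur.PcGolay
open Cfsg.Agent.Lib.Schur.Stem

section Final

variable {Γ : Type*} {G : Type*} [Group Γ] [Group G]

/-- The kernel of a Sylow subgroup lies in a cyclic group of a central element. -/
theorem exists_zpowers_sylow (c : Cert) (hc : c.check = true) {p : ℕ} [Fact p.Prime] (hpc : c.p = p)
    [Finite Γ] {σ : Γ →* G} (hσ : Cfsg.IsStemExtension σ) (e y : ℕ → G)
    (he1 : ∀ j i, i < j → j < c.n → e j * e i = wEval e (i :: c.rule j i))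
    (he2 : ∀ i, i < c.n → e i ^ c.p = wEval e (c.rule i i))
    (hf : ∀ f l, (y f)⁻¹ * wEval e (c.lett f l) * y f = wEval e (c.letb f l))
    (hcard : c.p ^ c.n ≤ Nat.card (chain e c.n ⊥ 0))
    {m : ℕ} (hG : Nat.card G = c.p ^ c.n * m) (hm : ¬ p ∣ m) (P : Sylow p Γ) :
    ∃ z : Γ, z ∈ σ.ker ∧ z ^ c.zm = 1 ∧
      ∀ a : (σ.subgroupMap (P : Subgroup Γ)).ker, ((a : P) : Γ) ∈ zpowers z := by
  have hpp : p.Prime := Fact.out
  have : Finite G := Finite.of_surjective σ hσ.1
  have hc' := hc
  simp only [Cert.check, Bool.and_eq_true] at hc'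
  obtain ⟨⟨⟨⟨hT, -⟩, -⟩, -⟩, -⟩ := hc'
  obtain ⟨hp1, hn, hr, hru1, hru2⟩ := table_facts hT
  obtain ⟨g, z, hg, hz, hzm, hg1, hg2⟩ := exists_lifts c hc σ hσ.1 hσ.2.1 e y he1 he2 hf
  have hmain := fun (w : Γ) => mem_zpowers_of_pc (w := w) (by omega : 0 < c.p) hr c.rule hru1 hru2 σ hσ.1 hσ.2.1 e g hg
    he1 he2 hz hg1 hg2 hcard
  -- the index
  set S := chain e c.n ⊥ 0 with hS
  have hcS : Nat.card S ≤ c.p ^ c.n := by
    have h1 := card_chain_le e c.n ⊥ (a := 0) (p := c.p) (by omega) (fun l _ _ k hk => ?_)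
      (fun l i _ hli hi => ?_) (fun l _ hln => ?_) c.n (Nat.zero_le _) le_rfl
    · rw [chain_eq_of_ge e c.n ⊥ le_rfl] at h1
      simpa using h1
    · rw [Subgroup.mem_bot] at hk
      subst hk
      simp
    · have h3 := he1 i l hli hi
      have h4 : (e l)⁻¹ * e i * e l = wEval e (c.rule i l) := by
        rw [mul_assoc, h3, wEval_cons, inv_mul_cancel_left]
      rw [h4]
      obtain ⟨rest, h5, h6⟩ := hru2 i l hli hi
      rw [h5]
      refine wEval_mem_chain e c.n ⊥ ?_
      intro x hx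
      rcases List.mem_cons.1 hx with rfl | hx
      · exact ⟨by omega, hi⟩
      · have := h6 x hx
        omega
    · rw [he2 l hln]
      refine wEval_mem_chain e c.n ⊥ ?_
      intro x hx
      have := hru1 l hln x hx
      omega
  have hcS2 : Nat.card S = c.p ^ c.n := le_antisymm hcS hcard
  have hidx : (comap σ S).index = m := by
    rw [Subgroup.index_comap_of_surjective S hσ.1]
    have h1 := Subgroup.card_mul_index S
    rw [hcS2, hG] at h1
    exact Nat.eq_of_mul_eq_mul_left (pow_pos (by omega) _) h1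
  -- every element of the kernel of `P` lies in `zpowers z`
  have hk : ∀ a : (σ.subgroupMap (P : Subgroup Γ)).ker, ((a : P) : Γ) ∈ zpowers z := by
    intro a
    have ha : ((a : P) : Γ) ∈ σ.ker := Cfsg.Agent.Lib.Schur.Stem.mem_ker_subgroupMap.1 a.2
    obtain ⟨k, hk⟩ := P.2 (a : P)
    have hk' : ((a : P) : Γ) ^ p ^ k = 1 := by
      have := congrArg Subtype.val hk
      simpa using this
    have hcop : Nat.Coprime (orderOf ((a : P) : Γ)) (comap σ S).index := by
      rw [hidx]
      have h1 : orderOf ((a : P) : Γ) ∣ p ^ k := orderOf_dvd_of_pow_eq_one hk'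
      refine Nat.Coprime.coprime_dvd_left h1 ?_
      exact Nat.Coprime.pow_left _ ((Nat.Prime.coprime_iff_not_dvd hpp).2 hm)
    exact hmain _ ha (Cfsg.Agent.Lib.Schur.Stem.mem_commutator_of_coprime _ (hσ.2.1 ha) (hσ.2.2 ha) hcop)
  exact ⟨z, hz, hzm, hk⟩


end Final

section Golay

variable {Γ : Type*} [Group Γ]

/-- The kernel of a Sylow subgroup lies in a cyclic group of a central element. -/
theorem exists_zpowers_golay (G : Subgroup (Equiv.Perm GolayPt)) (c : Cert) (hc : c.check = true)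
    (codes conj base ord : List ℕ) (hch : chkG c codes conj base ord = true)
    (hmemI : g idC ∈ G) (hmem1 : ∀ P ∈ codes, g P ∈ G) (hmem2 : ∀ P ∈ conj, g P ∈ G)
    {p : ℕ} [Fact p.Prime] (hpc : c.p = p) [Finite Γ] {σ : Γ →* G} (hσ : IsStemExtension σ) {m : ℕ}
    (hG : Nat.card G = c.p ^ c.n * m) (hm : ¬ p ∣ m) (P : Sylow p Γ) :
    ∃ z : Γ, z ∈ σ.ker ∧ z ^ c.zm = 1 ∧
      ∀ a : (σ.subgroupMap (P : Subgroup Γ)).ker, ((a : P) : Γ) ∈ zpowers z := by
  simp only [chkG, Bool.and_eq_true, List.all_eq_true] at hch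
  obtain ⟨⟨⟨⟨hv1, hv2⟩, hr⟩, hfu⟩, ⟨hl1, hl2⟩, hl3⟩ := hch
  have hb24 : ∀ b ∈ base, b < 24 := fun b hb => Nat.le_of_ble_eq_true (hl2 b hb)
  set L := letterC codes with hL
  set W := wCode L with hW
  -- validity
  have hLv : ∀ l, validPerm (L l) = true := by
    intro l
    by_cases hl : l < codes.length
    · rw [hL, letterC, List.getD_eq_getElem _ _ hl]
      exact hv1 _ (List.getElem_mem hl)
    · rw [hL, letterC, List.getD_eq_default _ _ (by omega)]
      exact idC_valid
  have hWv : ∀ w, validPerm (W w) = true := by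
    intro w
    induction w with
    | nil => exact idC_valid
    | cons a w ih => exact valid_comp (hLv a) ih
  have hLm : ∀ l, g (L l) ∈ G := by
    intro l
    by_cases hl : l < codes.length
    · rw [hL, letterC, List.getD_eq_getElem _ _ hl]
      exact hmem1 _ (List.getElem_mem hl)
    · rw [hL, letterC, List.getD_eq_default _ _ (by omega)]
      exact hmemI
  let C : ℕ → ℕ := fun f => conj.getD f idC
  have hCv : ∀ f, validPerm (C f) = true := by
    intro f
    by_cases hl : f < conj.length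
    · show validPerm (conj.getD f idC) = true
      rw [List.getD_eq_getElem _ _ hl]
      exact hv2 _ (List.getElem_mem hl)
    · show validPerm (conj.getD f idC) = true
      rw [List.getD_eq_default _ _ (by omega)]
      exact idC_valid
  have hCm : ∀ f, g (C f) ∈ G := by
    intro f
    by_cases hl : f < conj.length
    · show g (conj.getD f idC) ∈ G
      rw [List.getD_eq_getElem _ _ hl]
      exact hmem2 _ (List.getElem_mem hl)
    · show g (conj.getD f idC) ∈ G
      rw [List.getD_eq_default _ _ (by omega)]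
      exact hmemI
  let e : ℕ → G := fun l => ⟨g (L l), hLm l⟩
  let y : ℕ → G := fun f => ⟨g (C f), hCm f⟩
  have hwE : ∀ w, ((wEval e w : G) : Equiv.Perm GolayPt) = g (W w) := by
    intro w
    induction w with
    | nil => simp [hW, wCode, g_idC]
    | cons a w ih =>
      rw [wEval_cons, Subgroup.coe_mul, ih]
      show g (L a) * g (W w) = g (comp (L a) (W w))
      rw [g_comp (hLv a) (hWv w)]
  have hwinj : ∀ {a b : List ℕ}, W a = W b → wEval e a = wEval e b := by
    intro a b h
    apply Subtype.ext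
    rw [hwE, hwE, h]
  -- rule identities
  have he1 : ∀ j i, i < j → j < c.n → e j * e i = wEval e (i :: c.rule j i) := by
    intro j i hij hj
    have h1 := (hr j (List.mem_range.2 hj)).2 i (List.mem_range.2 hij)
    have h2 := Nat.eq_of_beq_eq_true h1
    apply Subtype.ext
    rw [hwE, Subgroup.coe_mul]
    show g (L j) * g (L i) = g (W (i :: c.rule j i))
    rw [← g_comp (hLv j) (hLv i), h2]
  have he2 : ∀ i, i < c.n → e i ^ c.p = wEval e (c.rule i i) := by
    intro i hi
    have h1 := (hr i (List.mem_range.2 hi)).1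
    have h2 := Nat.eq_of_beq_eq_true h1
    rw [← wEval_replicate]
    exact hwinj h2
  have hf : ∀ f l, (y f)⁻¹ * wEval e (c.lett f l) * y f = wEval e (c.letb f l) := by
    intro f l
    by_cases hff : f < c.items.length
    · obtain ⟨⟨h1, h2⟩, h3⟩ := hfu f (List.mem_range.2 hff)
      have h1' := Nat.eq_of_beq_eq_true h1
      by_cases hl : l < (c.items.getD f ([], [])).1.length
      · have h4 := Nat.eq_of_beq_eq_true (h3 l (List.mem_range.2 hl))
        rw [mul_assoc, inv_mul_eq_iff_eq_mul]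
        apply Subtype.ext
        rw [Subgroup.coe_mul, Subgroup.coe_mul, hwE, hwE]
        have h5 : g (comp (W (c.lett f l)) (C f)) = g (comp (C f) (W (c.letb f l))) := by
          rw [show comp (W (c.lett f l)) (C f) = comp (C f) (W (c.letb f l)) from h4]
        rw [g_comp (hWv _) (hCv _), g_comp (hCv _) (hWv _)] at h5
        exact h5
      · have e1 : c.lett f l = [] := by
          rw [Cert.lett, List.getD_eq_default _ _ (by omega)]
        have e2 : c.letb f l = [] := by
          rw [Cert.letb, List.getD_eq_default _ _ (by omega)]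
        rw [e1, e2]
        simp
    · have e1 : c.lett f l = [] := by
        rw [Cert.lett, List.getD_eq_default c.items _ (by omega)]
        simp
      have e2 : c.letb f l = [] := by
        rw [Cert.letb, List.getD_eq_default c.items _ (by omega)]
        simp
      rw [e1, e2]
      simp
  -- the size of the subgroup
  have hcard : c.p ^ c.n ≤ Nat.card (chain e c.n ⊥ 0) := by
    have hl1' := Nat.eq_of_beq_eq_true hl1
    rw [← hl1']
    set ws := ord.map (wordOfCode c.p c.n 0) with hws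
    have hmemw : ∀ w ∈ ws, wEval e w ∈ chain e c.n ⊥ 0 := by
      intro w hw
      obtain ⟨x, -, rfl⟩ := List.mem_map.1 hw
      refine wEval_mem_chain e c.n ⊥ fun y hy => ?_
      have := mem_wordOfCode hy
      omega
    have hnd : (ord.map fun x => fpW L base (wordOfCode c.p c.n 0 x)).Nodup :=
      (incB_pairwise hl3).imp (fun h => h.ne)
    have hlen : ws.length = ord.length := by simp [hws]
    let φ : Fin ord.length → chain e c.n ⊥ 0 := fun i =>
      ⟨wEval e (wordOfCode c.p c.n 0 ord[i]), hmemw _ (List.mem_map.2 ⟨_, List.getElem_mem _, rfl⟩)⟩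
    have hφ : Function.Injective φ := by
      intro a b hab
      have h1 : wEval e (wordOfCode c.p c.n 0 ord[a]) = wEval e (wordOfCode c.p c.n 0 ord[b]) :=
        congrArg Subtype.val hab
      have h2 : g (W (wordOfCode c.p c.n 0 ord[a])) = g (W (wordOfCode c.p c.n 0 ord[b])) := by
        rw [← hwE, ← hwE, h1]
      have h3 := fpW_congr hLv hWv hb24 h2
      have h4 := (List.nodup_iff_injective_get.1 hnd)
      have h5 : a.1 = b.1 := by
        have ha : a.1 < (ord.map fun x => fpW L base (wordOfCode c.p c.n 0 x)).length := by simp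
        have hb : b.1 < (ord.map fun x => fpW L base (wordOfCode c.p c.n 0 x)).length := by simp
        have := @h4 ⟨a.1, ha⟩ ⟨b.1, hb⟩ (by simpa using h3)
        exact Fin.mk.inj_iff.1 this
      exact Fin.ext h5
    have := Nat.card_le_card_of_injective φ hφ
    simpa using this
  exact exists_zpowers_sylow c hc hpc hσ e y he1 he2 hf hcard hG hm P


end Golay

section Abstract

variable {Γ : Type*} {G : Type*} [Group Γ] [Group G]

/-- Central elements of `p`-power order of the kernel lie in the kernel of a Sylow subgroup. -/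
theorem mem_of_sylow [Finite Γ] {σ : Γ →* G} (hσ : IsStemExtension σ) {p : ℕ} [Fact p.Prime]
    (P : Sylow p Γ) {z : Γ}
    (h : ∀ a : (σ.subgroupMap (P : Subgroup Γ)).ker, ((a : P) : Γ) ∈ zpowers z)
    {x : Γ} (hx : x ∈ σ.ker) {k : ℕ} (hk : x ^ p ^ k = 1) : x ∈ zpowers z := by
  have hxP : x ∈ (P : Subgroup Γ) := mem_sylow_of_central (hσ.2.1 hx) hk P
  exact h ⟨⟨x, hxP⟩, mem_ker_subgroupMap.2 hx⟩

/-- Two central elements of coprime orders: a kernel of order dividing `12`. -/
theorem ker_cyclic_of_23 [Finite Γ] {σ : Γ →* G} (hσ : IsStemExtension σ)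
    (hd : Nat.card σ.ker ∣ 12) {z2 z3 : Γ} (h2 : z2 ∈ σ.ker) (h24 : z2 ^ 4 = 1) (h3 : z3 ∈ σ.ker)
    (h33 : z3 ^ 3 = 1) (hk2 : ∀ x ∈ σ.ker, x ^ 2 ^ 2 = 1 → x ∈ zpowers z2)
    (hk3 : ∀ x ∈ σ.ker, x ^ 3 ^ 1 = 1 → x ∈ zpowers z3) :
    IsCyclic σ.ker := by
  have hcm : ∀ {a b : Γ}, a ∈ σ.ker → a * b = b * a := fun {a b} ha =>
    (mem_center_iff.1 (hσ.2.1 ha) b).symm
  have hcom : Commute z2 z3 := hcm h2
  have h12 : ∀ x ∈ σ.ker, x ^ 12 = 1 := by
    intro x hx
    have h1 : (⟨x, hx⟩ : σ.ker) ^ Nat.card σ.ker = 1 := pow_card_eq_one'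
    have h2 : x ^ Nat.card σ.ker = 1 := congrArg Subtype.val h1
    obtain ⟨d, hd⟩ := hd
    rw [hd, pow_mul, h2, one_pow]
  let t : Γ := z2 * z3
  have htk : t ∈ σ.ker := mul_mem h2 h3
  have h9 : t ^ 9 = z2 := by
    show (z2 * z3) ^ 9 = z2
    rw [hcom.mul_pow, show (9 : ℕ) = 4 * 2 + 1 by norm_num, pow_succ, pow_mul, h24, one_pow, one_mul,
      show (4 * 2 + 1 : ℕ) = 3 * 3 by norm_num, pow_mul, h33, one_pow, mul_one]
  have h4 : t ^ 4 = z3 := by
    show (z2 * z3) ^ 4 = z3
    rw [hcom.mul_pow, h24, one_mul, show (4 : ℕ) = 3 * 1 + 1 by norm_num, pow_succ, pow_mul, h33, one_pow,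
      one_mul]
  have hz2 : zpowers z2 ≤ zpowers t := by
    rw [zpowers_le, ← h9]
    exact pow_mem (mem_zpowers t) 9
  have hz3 : zpowers z3 ≤ zpowers t := by
    rw [zpowers_le, ← h4]
    exact pow_mem (mem_zpowers t) 4
  have hall : ∀ x ∈ σ.ker, x ∈ zpowers t := by
    intro x hx
    have hx12 := h12 x hx
    have hp9 : (x ^ 9) ^ 2 ^ 2 = 1 := by
      rw [← pow_mul]
      rw [show 9 * 2 ^ 2 = 12 * 3 by norm_num, pow_mul, hx12, one_pow]
    have hp4 : (x ^ 4) ^ 3 ^ 1 = 1 := by
      rw [← pow_mul]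
      rw [show 4 * 3 ^ 1 = 12 by norm_num, hx12]
    have h5 : x ^ 9 ∈ zpowers t := hz2 (hk2 _ (pow_mem hx 9) hp9)
    have h6 : x ^ 4 ∈ zpowers t := hz3 (hk3 _ (pow_mem hx 4) hp4)
    have h7 : x = x ^ 9 * ((x ^ 4) ^ 2)⁻¹ := by
      rw [← pow_mul]
      rw [show (9 : ℕ) = 1 + 4 * 2 by norm_num, pow_add, pow_one, mul_assoc, mul_inv_cancel, mul_one]
    rw [h7]
    exact mul_mem h5 (inv_mem (pow_mem h6 2))
  refine ⟨⟨⟨t, htk⟩, ?_⟩⟩
  rintro ⟨x, hx⟩
  obtain ⟨n, hn⟩ := Subgroup.mem_zpowers_iff.1 (hall x hx)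
  refine ⟨n, Subtype.ext ?_⟩
  simpa using hn

/-- A surjection from `ZMod n` onto a cyclic group of order dividing `n`. -/
theorem exists_surj_of_cyclic {K : Type*} [Group K] [Finite K] (hcyc : IsCyclic K)
    {n : ℕ} (hn : n ≠ 0) (hd : Nat.card K ∣ n) :
    ∃ π : Multiplicative (ZMod n) →* K, Function.Surjective π := by
  have : NeZero n := ⟨hn⟩
  let e := zmodCyclicMulEquiv hcyc
  let φ : ZMod n →+* ZMod (Nat.card K) := ZMod.castHom hd _
  refine ⟨e.toMonoidHom.comp (AddMonoidHom.toMultiplicative φ.toAddMonoidHom), ?_⟩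
  intro x
  obtain ⟨y, hy⟩ := e.surjective x
  obtain ⟨z, hz⟩ := ZMod.castHom_surjective hd (Multiplicative.toAdd y)
  refine ⟨Multiplicative.ofAdd z, ?_⟩
  rw [← hy]
  exact congrArg e (congrArg Multiplicative.ofAdd hz)

end Abstract

end Cfsg.Agent.Lib.Schur.PcCyc
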