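import Cfsg.Agent.Lib.Schur.PcPerm

/-!
# The check of `PcPerm` in parts

The kernel forgets its intermediate values between declarations, so a check in parts needs far
less memory for permutations of large degree.
-/

set_option autoImplicit false

namespace Cfsg.Agent.Lib.Schur.PcPerm2

open Cfsg.Agent.Lib.Schur.PcMain Cfsg.Agent.Lib.Schur.PcPerm
open Cfsg.Agent.Lib.PermComp.Core

/-- The relations of one letter. -/
noncomputable def rowOK (n w mask idc : ℕ) (c : Cert) (codes : List ℕ) (j : ℕ) : Bool :=
  let L : ℕ → ℕ := fun l => codes.getD l idc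
  let W := wCode n w mask idc L
  (Nat.beq (W (List.replicate c.p j)) (W (c.rule j j))) &&
    (List.range j).all fun i => Nat.beq (Cfsg.Agent.Lib.PermComp.Core.comp n w mask (L j) (L i)) (W (i :: c.rule j i))

/-- The lengths of one item. -/
noncomputable def lenOK (c : Cert) (conj : List ℕ) (f : ℕ) : Bool :=
  (Nat.beq (c.items.getD f ([], [])).1.length (c.items.getD f ([], [])).2.length) &&
    (Nat.ble (c.items.length) conj.length)

/-- One letter of one item. -/
noncomputable def letOK (n w mask idc : ℕ) (c : Cert) (codes conj : List ℕ) (f l : ℕ) : Bool :=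
  let L : ℕ → ℕ := fun l => codes.getD l idc
  let W := wCode n w mask idc L
  Nat.beq (Cfsg.Agent.Lib.PermComp.Core.comp n w mask (W (c.lett f l)) (conj.getD f idc))
    (Cfsg.Agent.Lib.PermComp.Core.comp n w mask (conj.getD f idc) (W (c.letb f l)))

/-- The check of the number of elements. -/
noncomputable def ordOK (n w mask idc : ℕ) (c : Cert) (codes base ord : List ℕ) : Bool :=
  let L : ℕ → ℕ := fun l => codes.getD l idc
  (Nat.beq ord.length (c.p ^ c.n) && (base.all fun b => Nat.blt b n) &&
   incB (ord.map fun x => fpW w mask L (2 ^ w) base (wordOfCode c.p c.n 0 x)))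

theorem chkP_of_parts {n w mask idc : ℕ} {c : Cert} {codes conj base ord : List ℕ}
    (h1 : Nat.beq mask (2 ^ w - 1) = true)
    (h2 : ((List.range n).all fun i => Nat.beq (app w mask idc i) i) = true)
    (h3 : ∀ j < c.n, rowOK n w mask idc c codes j = true)
    (h4 : ∀ f < c.items.length, lenOK c conj f = true)
    (h5 : ∀ f < c.items.length, ∀ l < (c.items.getD f ([], [])).1.length,
      letOK n w mask idc c codes conj f l = true)
    (h6 : ordOK n w mask idc c codes base ord = true) :
    chkP n w mask idc c codes conj base ord = true := by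
  unfold chkP
  simp only [ifB_eq_true]
  refine ⟨h1, h2, ?_, ?_, h6⟩
  · rw [List.all_eq_true]
    intro j hj
    exact h3 j (List.mem_range.1 hj)
  · rw [List.all_eq_true]
    intro f hf
    have hf' := List.mem_range.1 hf
    rw [Bool.and_eq_true]
    refine ⟨h4 f hf', ?_⟩
    rw [List.all_eq_true]
    intro l hl
    exact h5 f hf' l (List.mem_range.1 hl)

end Cfsg.Agent.Lib.Schur.PcPerm2
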