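import Cfsg.Agent.Lib.Schur.Hopf

/-!
# Projective representations and the Hopf extension

* `exists_ext_of_divisible`: extension of homomorphisms to divisible abelian groups;
* `exists_rep_of_central_char`: a representation on which a central subgroup acts through a given
  character.
-/

set_option autoImplicit false

universe u v w

namespace Cfsg.Agent.Lib.Schur.Proj

open Subgroup Cfsg Cfsg.Agent.Lib.Schur.Hopf
open scoped commutatorElement MatrixGroups

/-- Extension of homomorphisms to a divisible abelian group. -/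
theorem exists_ext_of_divisible {A B Z : Type*} [CommGroup A] [CommGroup B] [CommGroup Z]
    (hZ : ∀ z : Z, ∀ k : ℕ, k ≠ 0 → ∃ w : Z, w ^ k = z) (f : A →* B)
    (hf : Function.Injective f) (g : A →* Z) : ∃ h : B →* Z, ∀ a, h (f a) = g a := by
  have hdiv : DivisibleBy (Additive Z) ℤ := by
    refine divisibleByOfSMulRightSurj (Additive Z) ℤ ?_
    intro n hn z
    by_cases hn0 : 0 ≤ n
    · obtain ⟨k, rfl⟩ := Int.eq_ofNat_of_zero_le hn0
      have hk : k ≠ 0 := by
        rintro rfl
        exact hn rfl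
      obtain ⟨w, hw⟩ := hZ (Additive.toMul z) k hk
      refine ⟨Additive.ofMul w, ?_⟩
      apply Additive.toMul.injective
      simpa using hw
    · have hk : (-n).toNat ≠ 0 := by omega
      obtain ⟨w, hw⟩ := hZ (Additive.toMul z)⁻¹ _ hk
      refine ⟨Additive.ofMul w, ?_⟩
      apply Additive.toMul.injective
      have h1 : n = -((-n).toNat : ℤ) := by omega
      show (Additive.toMul (n • Additive.ofMul w)) = _
      rw [h1, neg_smul, natCast_zsmul, toMul_neg, toMul_nsmul, toMul_ofMul, hw, inv_inv]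
  have hb := Module.Baer.of_divisible (Additive Z)
  let f' : Additive A →ₗ[ℤ] Additive B := (MonoidHom.toAdditive f).toIntLinearMap
  let g' : Additive A →ₗ[ℤ] Additive Z := (MonoidHom.toAdditive g).toIntLinearMap
  have hf' : Function.Injective f' := fun a b hab =>
    Additive.toMul.injective (hf (Additive.ofMul.injective hab))
  obtain ⟨h, hh⟩ := hb.extension_property f' hf' g'
  refine ⟨MonoidHom.toAdditive.symm h.toAddMonoidHom, fun a => ?_⟩
  exact congrArg Additive.toMul (LinearMap.congr_fun hh (Additive.ofMul a))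

/-- The center of `GL` is divisible. -/
theorem center_gl_divisible (n : ℕ) (z : center (GL (Fin n) ℂ)) (k : ℕ) (hk : k ≠ 0) :
    ∃ w : center (GL (Fin n) ℂ), w ^ k = z := by
  obtain ⟨z, hz⟩ := z
  have hz' := hz
  rw [Matrix.GeneralLinearGroup.center_eq_range_scalar] at hz'
  obtain ⟨u, rfl⟩ := hz'
  obtain ⟨v, hv⟩ := IsAlgClosed.exists_pow_nat_eq (u : ℂ) (Nat.pos_of_ne_zero hk)
  have hv0 : v ≠ 0 := by
    rintro rfl
    rw [zero_pow hk] at hv
    exact u.ne_zero hv.symm
  let v' : ℂˣ := Units.mk0 v hv0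
  have hv' : v' ^ k = u := by
    apply Units.ext
    simp [v', hv]
  have hmem : Matrix.GeneralLinearGroup.scalar (Fin n) v' ∈ center (GL (Fin n) ℂ) := by
    rw [Matrix.GeneralLinearGroup.center_eq_range_scalar]
    exact ⟨v', rfl⟩
  refine ⟨⟨_, hmem⟩, ?_⟩
  apply Subtype.ext
  show (Matrix.GeneralLinearGroup.scalar (Fin n) v') ^ k = _
  rw [← map_pow, hv']

section Rep

variable {Δ : Type*} [Group Δ] [Finite Δ] (B : Subgroup Δ) (lam : B →* ℂˣ)

/-- The induced module. -/
private def indV : Submodule ℂ (Δ → ℂ) where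
  carrier := {f | ∀ (b : B) (x : Δ), f (b * x) = (lam b : ℂ) * f x}
  add_mem' := by
    intro f g hf hg b x
    simp only [Pi.add_apply]
    rw [hf b x, hg b x, mul_add]
  zero_mem' := by
    intro b x
    simp
  smul_mem' := by
    intro c f hf b x
    simp only [Pi.smul_apply, smul_eq_mul]
    rw [hf b x]
    ring

private def indAct (δ : Δ) : indV B lam →ₗ[ℂ] indV B lam where
  toFun f := ⟨fun x => f.1 (x * δ), fun b x => by
    have := f.2 b (x * δ)
    simpa [mul_assoc] using this⟩
  map_add' f g := rfl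
  map_smul' c f := rfl

private def indRep : Δ →* (indV B lam →ₗ[ℂ] indV B lam) where
  toFun := indAct B lam
  map_one' := by
    ext f x
    simp [indAct]
  map_mul' a b := by
    ext f x
    simp [indAct, mul_assoc]

end Rep

/-- A representation on which a central subgroup acts through a given character. -/
theorem exists_rep_of_central_char {Δ : Type*} [Group Δ] [Finite Δ] (B : Subgroup Δ)
    (hB : B ≤ center Δ) (lam : B →* ℂˣ) :
    ∃ (k : ℕ) (ρ : Δ →* GL (Fin k) ℂ), 0 < k ∧
      ∀ b : B, ρ b = Matrix.GeneralLinearGroup.scalar (Fin k) (lam b) := by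
  classical
  have : Fintype Δ := Fintype.ofFinite Δ
  let V := indV B lam
  have hfd : FiniteDimensional ℂ V := inferInstance
  let k := Module.finrank ℂ V
  -- nonzero element
  let f₀ : Δ → ℂ := fun x => if h : x ∈ B then (lam ⟨x, h⟩ : ℂ) else 0
  have hf₀ : f₀ ∈ indV B lam := by
    intro b x
    by_cases hx : x ∈ B
    · have hbx : (b : Δ) * x ∈ B := mul_mem b.2 hx
      simp only [f₀, dif_pos hx, dif_pos hbx]
      have : (⟨(b : Δ) * x, hbx⟩ : B) = b * ⟨x, hx⟩ := rfl
      rw [this, map_mul, Units.val_mul]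
    · have hbx : (b : Δ) * x ∉ B := fun h => hx (by
        have := mul_mem (inv_mem b.2) h
        simpa using this)
      simp [f₀, dif_neg hx, dif_neg hbx]
  have hne : (⟨f₀, hf₀⟩ : V) ≠ 0 := by
    intro h
    have h1 : f₀ 1 = 0 := congrFun (congrArg Subtype.val h) 1
    have h2 : f₀ 1 = 1 := by
      simp only [f₀, dif_pos (one_mem B)]
      have : (⟨1, one_mem B⟩ : B) = 1 := rfl
      rw [this, map_one, Units.val_one]
    rw [h2] at h1
    exact one_ne_zero h1
  have hk : 0 < k := by
    have : Nontrivial V := ⟨⟨_, _, hne⟩⟩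
    exact Module.finrank_pos
  let b := Module.finBasis ℂ V
  let ρ₀ : Δ →* Matrix (Fin k) (Fin k) ℂ :=
    (LinearMap.toMatrixAlgEquiv b).toMonoidHom.comp (indRep B lam)
  refine ⟨k, ρ₀.toHomUnits, hk, ?_⟩
  intro z
  apply Units.ext
  show ρ₀ z = Matrix.scalar (Fin k) ((lam z : ℂˣ) : ℂ)
  have h1 : indRep B lam z = (lam z : ℂ) • LinearMap.id := by
    ext f x
    show f.1 (x * z) = (lam z : ℂ) * f.1 x
    have h2 : x * (z : Δ) = z * x := (mem_center_iff.1 (hB z.2) x)
    rw [h2]
    exact f.2 z x
  show (LinearMap.toMatrixAlgEquiv b) (indRep B lam z) = _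
  rw [h1, map_smul]
  ext i j
  simp [Matrix.scalar_apply, Matrix.diagonal_apply]
  rw [LinearMap.toMatrixAlgEquiv_id, Matrix.one_apply]
  split_ifs <;> simp

end Cfsg.Agent.Lib.Schur.Proj
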