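import Cfsg.Agent.Lib.PermComp.Core

/-!
# Straight line programs with forced arguments

The same check as `Core.slpCheck`, except that the values are forced before they enter a
composition: the loop of a composition then does not walk the list of values again.
-/

set_option autoImplicit false

namespace Cfsg.Agent.Lib.Schur.Slp2

open Cfsg.Agent.Lib.PermComp Cfsg.Agent.Lib.PermComp.Core

/-- Run a straight line program, forcing the values before each operation. -/
noncomputable def slp2 (n w mask idc : ℕ) (gens : List ℕ) :
    List (ℕ × ℕ × ℕ) → List ℕ → ℕ → Bool :=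
  fun p =>
  List.rec (motive := fun _ => List ℕ → ℕ → Bool)
    (fun vals _ => allL (fun c => memN c vals) gens)
    (fun ins _ ih vals k =>
      ifB (Nat.ble (Nat.succ ins.2.1) k) <|
      force (nthN vals ins.2.1) fun a =>
      Nat.rec (motive := fun _ => Bool)
        (ifB (Nat.ble (Nat.succ ins.2.2) k) <|
          force (nthN vals ins.2.2) fun b =>
          force (Core.comp n w mask a b) fun v =>
            ih (v :: vals) (Nat.succ k))
        (fun _ _ =>
          force (Core.inv n w mask a) fun v =>
            ifB (Nat.beq (Core.comp n w mask v a) idc) <|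
              ih (v :: vals) (Nat.succ k))
        ins.1)
    p

variable {α : Type*} {n w mask : ℕ} {e : α ≃ Fin n}

theorem slp2_sound (hm : mask = 2 ^ w - 1) {idc : ℕ}
    (hid : ∀ i < n, app w mask idc i = i) (K : Subgroup (Equiv.Perm α)) (gens : List ℕ) :
    ∀ (p : List (ℕ × ℕ × ℕ)) (vals : List ℕ) (k : ℕ), k = vals.length →
      (∀ c ∈ vals, ∃ g ∈ K, Rep w mask e c g) →
      slp2 n w mask idc gens p vals k = true →
      ∀ c ∈ gens, ∃ g ∈ K, Rep w mask e c g := by
  intro p
  induction p with
  | nil =>
    intro vals k _ hv h c hc
    have h' : allL (fun c => memN c vals) gens = true := h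
    exact hv c ((memN_eq_true _ _).1 ((allL_eq_true _ _).1 h' c hc))
  | cons ins p ih =>
    intro vals k hk hv h
    have hnth : ∀ i, Nat.ble (Nat.succ i) k = true → ∃ g ∈ K, Rep w mask e (nthN vals i) g := by
      intro i hi
      have hi' : i < k := Nat.le_of_ble_eq_true hi
      exact hv _ (nthN_mem vals i (hk ▸ hi'))
    have h' : (ifB (Nat.ble (Nat.succ ins.2.1) k) <|
        force (nthN vals ins.2.1) fun a =>
        Nat.rec (motive := fun _ => Bool)
          (ifB (Nat.ble (Nat.succ ins.2.2) k) <|
            force (nthN vals ins.2.2) fun b =>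
            force (Core.comp n w mask a b) fun v =>
              slp2 n w mask idc gens p (v :: vals) (Nat.succ k))
          (fun _ _ =>
            force (Core.inv n w mask a) fun v =>
              ifB (Nat.beq (Core.comp n w mask v a) idc) <|
                slp2 n w mask idc gens p (v :: vals) (Nat.succ k))
          ins.1) = true := h
    rw [ifB_eq_true, force_eq] at h'
    obtain ⟨h1, h2⟩ := h'
    obtain ⟨a, ha, hra⟩ := hnth _ h1
    cases hop : ins.1 with
    | zero =>
      rw [hop] at h2
      have h3 : ifB (Nat.ble (Nat.succ ins.2.2) k)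
          (force (nthN vals ins.2.2) fun b =>
            force (Core.comp n w mask (nthN vals ins.2.1) b) fun v =>
              slp2 n w mask idc gens p (v :: vals) (Nat.succ k)) = true := h2
      rw [ifB_eq_true, force_eq, force_eq] at h3
      obtain ⟨h4, h5⟩ := h3
      obtain ⟨b, hb, hrb⟩ := hnth _ h4
      refine ih _ _ (by simp [hk]) ?_ h5
      intro c hc
      rcases List.mem_cons.1 hc with rfl | hc
      · exact ⟨a * b, mul_mem ha hb, hra.comp hm hrb⟩
      · exact hv c hc
    | succ m =>
      rw [hop] at h2
      have h3 : (force (Core.inv n w mask (nthN vals ins.2.1)) fun v =>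
            ifB (Nat.beq (Core.comp n w mask v (nthN vals ins.2.1)) idc) <|
              slp2 n w mask idc gens p (v :: vals) (Nat.succ k)) = true := h2
      rw [force_eq, ifB_eq_true] at h3
      obtain ⟨h4, h5⟩ := h3
      refine ih _ _ (by simp [hk]) ?_ h5
      intro c hc
      rcases List.mem_cons.1 hc with rfl | hc
      · exact ⟨a⁻¹, inv_mem ha, hra.inv hm hid (Nat.eq_of_beq_eq_true h4)⟩
      · exact hv c hc

end Cfsg.Agent.Lib.Schur.Slp2
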