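import Cfsg.Agent.Lib.Schur.Hopf

/-!
# The transfer map between Hopf extensions

For `π : F →* T` and `U ≤ T` of finite index, with the free group `F₁ = π⁻¹(U)`, we build a homomorphism
`hopfM π → hopfM π₁` (the transfer) and `hopfM π₁ → hopfM π` (induced by inclusion) whose composite is
the power `[T : U]`.
-/

set_option autoImplicit false

universe u v w

namespace Cfsg.Agent.Lib.Schur.Transfer

open Subgroup Cfsg Cfsg.Agent.Lib.Schur.Hopf
open scoped commutatorElement Pointwise IsMulCommutative

section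

variable {F : Type u} [Group F] {T : Type v} [Group T] (π : F →* T) (U : Subgroup T)

/-- The restricted presentation. -/
abbrev piU : ↥(U.comap π) →* ↥U := π.subgroupComap U

/-- The inclusion of the kernel of `π` into `π⁻¹(U)`. -/
def kerIncl : π.ker →* ↥(U.comap π) :=
  Subgroup.inclusion (fun x (hx : π x = 1) => by
    show π x ∈ U
    rw [hx]
    exact one_mem U)

@[simp] theorem coe_kerIncl (r : π.ker) : ((kerIncl π U r : ↥(U.comap π)) : F) = r := rfl

theorem kerIncl_mem_ker (r : π.ker) : kerIncl π U r ∈ (piU π U).ker := by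
  rw [MonoidHom.mem_ker]
  apply Subtype.ext
  exact r.2

/-- The class of an element of `ker π` in the center of the Hopf extension of `U`. -/
def cl : π.ker →* center (HopfN (piU π U)) :=
  ((QuotientGroup.mk' (hopfC (piU π U))).comp (kerIncl π U)).codRestrict _ (fun r =>
    ker_hopfP_le_center (piU π U) (by
      show hopfP (piU π U) ((kerIncl π U r : ↥(U.comap π)) : HopfN (piU π U)) = 1
      rw [hopfP_mk]
      exact kerIncl_mem_ker π U r))

theorem coe_cl (r : π.ker) :
    ((cl π U r : center (HopfN (piU π U))) : HopfN (piU π U))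
      = ((kerIncl π U r : ↥(U.comap π)) : HopfN (piU π U)) := rfl

/-- Conjugation by `π⁻¹(U)` does not change the class. -/
theorem cl_conj (u : ↥(U.comap π)) (r x : π.ker) (h : (x : F) = (u : F)⁻¹ * r * u) :
    cl π U x = cl π U r := by
  apply Subtype.ext
  rw [coe_cl, coe_cl]
  have h1 : kerIncl π U x = u⁻¹ * kerIncl π U r * u := Subtype.ext h
  rw [h1, QuotientGroup.mk_mul, QuotientGroup.mk_mul, QuotientGroup.mk_inv]
  have hc := ((cl π U r).2)
  rw [coe_cl] at hc
  have := mem_center_iff.1 hc ((u : ↥(U.comap π)) : HopfN (piU π U))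
  rw [mul_assoc, ← this, ← mul_assoc, inv_mul_cancel, one_mul]

variable [(U.comap π).FiniteIndex]

/-- A fixed transversal. -/
noncomputable def trans : (U.comap π).LeftTransversal := default

/-- The representative of a coset. -/
noncomputable def rep (q : F ⧸ U.comap π) : F := (trans π U).2.leftQuotientEquiv q

theorem mk_rep (q : F ⧸ U.comap π) : ((rep π U q : F) : F ⧸ U.comap π) = q :=
  (trans π U).2.quotientGroupMk_leftQuotientEquiv q

/-- Conjugate of an element of the kernel by the representative of `q`. -/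
def conjKer (q : F) (r : π.ker) : π.ker :=
  ⟨q⁻¹ * r * q, by
    rw [MonoidHom.mem_ker, map_mul, map_mul, map_inv]
    have : π r = 1 := r.2
    rw [this]
    simp⟩

noncomputable instance : Fintype (F ⧸ U.comap π) := (U.comap π).fintypeQuotientOfFiniteIndex

/-- The transfer on the kernel. -/
noncomputable def tau : π.ker →* center (HopfN (piU π U)) where
  toFun r := ∏ q : F ⧸ U.comap π, cl π U (conjKer π (rep π U q) r)
  map_one' := by
    apply Finset.prod_eq_one
    intro q _
    have : conjKer π (rep π U q) 1 = 1 := by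
      apply Subtype.ext
      simp [conjKer]
    rw [this, map_one]
  map_mul' a b := by
    rw [← Finset.prod_mul_distrib]
    apply Finset.prod_congr rfl
    intro q _
    rw [← map_mul]
    congr 1
    apply Subtype.ext
    simp [conjKer, mul_assoc]

theorem tau_conj (f : F) (r s : π.ker) (h : (s : F) = f * r * f⁻¹) : tau π U s = tau π U r := by
  show ∏ q : F ⧸ U.comap π, cl π U (conjKer π (rep π U q) s)
    = ∏ q : F ⧸ U.comap π, cl π U (conjKer π (rep π U q) r)
  refine Fintype.prod_equiv (MulAction.toPerm (f⁻¹ : F)) _ _ ?_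
  intro q
  have hq : ((rep π U (f⁻¹ • q))⁻¹ * (f⁻¹ * rep π U q)) ∈ U.comap π := by
    apply QuotientGroup.eq.1
    rw [mk_rep]
    conv_lhs => rw [← mk_rep π U q]
    rfl
  refine cl_conj π U ⟨_, hq⟩ _ _ ?_
  show (rep π U q)⁻¹ * (s : F) * rep π U q = _
  show _ = ((rep π U (f⁻¹ • q))⁻¹ * (f⁻¹ * rep π U q))⁻¹ *
      ((rep π U (f⁻¹ • q))⁻¹ * (r : F) * rep π U (f⁻¹ • q)) *
      ((rep π U (f⁻¹ • q))⁻¹ * (f⁻¹ * rep π U q))
  rw [h]
  group

/-- `tau` kills `[ker π, F]`. -/
theorem tau_of_mem_hopfC (x : F) (hx : x ∈ hopfC π) (hx' : x ∈ π.ker) :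
    tau π U ⟨x, hx'⟩ = 1 := by
  have hle : hopfC π ≤ (tau π U).ker.map π.ker.subtype := by
    rw [Subgroup.commutator_le]
    intro r hr f _
    have h1 : f * r⁻¹ * f⁻¹ ∈ π.ker := by
      rw [MonoidHom.mem_ker, map_mul, map_mul, map_inv, map_inv]
      have : π r = 1 := hr
      rw [this]
      simp
    have h2 : tau π U ⟨f * r⁻¹ * f⁻¹, h1⟩ = tau π U (⟨r, hr⟩⁻¹) :=
      tau_conj π U f (⟨r, hr⟩⁻¹) _ rfl
    refine ⟨⟨r, hr⟩ * ⟨f * r⁻¹ * f⁻¹, h1⟩, ?_, ?_⟩
    · rw [SetLike.mem_coe, MonoidHom.mem_ker, map_mul, h2, map_inv, mul_inv_cancel]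
    · show r * (f * r⁻¹ * f⁻¹) = ⁅r, f⁆
      rw [commutatorElement_def]
      group
  obtain ⟨y, hy, hyx⟩ := hle hx
  have : y = ⟨x, hx'⟩ := Subtype.ext hyx
  rw [← this]
  exact hy

/-- The link with the Mathlib transfer to the abelianization. -/
theorem hopfQ_tau (r : π.ker) :
    hopfQ (piU π U) ((tau π U r : center (HopfN (piU π U))) : HopfN (piU π U))
      = MonoidHom.transfer (Abelianization.of : ↥(U.comap π) →* Abelianization ↥(U.comap π)) (r : F) := by
  rw [MonoidHom.transfer_def _ (trans π U)]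
  let qc : center (HopfN (piU π U)) →* Abelianization ↥(U.comap π) :=
    (hopfQ (piU π U)).comp (center (HopfN (piU π U))).subtype
  show qc (tau π U r) = _
  have h0 : tau π U r = ∏ q : F ⧸ U.comap π, cl π U (conjKer π (rep π U q) r) := rfl
  rw [h0, map_prod]
  unfold Subgroup.leftTransversals.diff
  apply Finset.prod_congr rfl
  intro q _
  show Abelianization.of (kerIncl π U (conjKer π (rep π U q) r)) = _
  congr 1
  apply Subtype.ext
  show (rep π U q)⁻¹ * (r : F) * rep π U q = (rep π U q)⁻¹ * _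
  have hq : (r : F)⁻¹ • q = q := by
    conv_lhs => rw [← mk_rep π U q]
    conv_rhs => rw [← mk_rep π U q]
    show (((r : F)⁻¹ * rep π U q : F) : F ⧸ U.comap π) = _
    apply QuotientGroup.eq.2
    have h1 : (((r : F)⁻¹ * rep π U q)⁻¹ * rep π U q) = (rep π U q)⁻¹ * (r : F) * rep π U q := by
      group
    rw [h1]
    show π _ ∈ U
    have h2 : π ((rep π U q)⁻¹ * (r : F) * rep π U q) = 1 := (conjKer π (rep π U q) r).2
    rw [h2]
    exact one_mem U
  have h3 := Subgroup.smul_apply_eq_smul_apply_inv_smul (H := U.comap π) (r : F) (trans π U) q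
  rw [hq] at h3
  rw [mul_assoc]
  congr 1
  rw [show (((r : F) • trans π U).2.leftQuotientEquiv q : F) = _ from h3]
  rfl

/-- An element of `ker π ⊓ F'` has transfer in `hopfM`. -/
theorem tau_mem_hopfM (r : π.ker) (hr : (r : F) ∈ commutator F) :
    ((tau π U r : center (HopfN (piU π U))) : HopfN (piU π U)) ∈ hopfM (piU π U) := by
  rw [hopfM, Subgroup.mem_inf]
  constructor
  · -- each factor lies in the kernel
    have hk : ∀ x : π.ker, cl π U x ∈ ((hopfP (piU π U)).comp (center _).subtype).ker := by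
      intro x
      rw [MonoidHom.mem_ker]
      exact kerIncl_mem_ker π U x
    have h0 : tau π U r = ∏ q : F ⧸ U.comap π, cl π U (conjKer π (rep π U q) r) := rfl
    have := Subgroup.prod_mem _ (fun q (_ : q ∈ Finset.univ) => hk (conjKer π (rep π U q) r))
    rw [← h0] at this
    exact this
  · rw [← ker_hopfQ, MonoidHom.mem_ker, hopfQ_tau]
    exact Abelianization.commutator_subset_ker _ hr

/-- The map induced by the inclusion `π⁻¹(U) → F`. -/
def iotaN : HopfN (piU π U) →* HopfN π :=
  QuotientGroup.map (hopfC (piU π U)) (hopfC π) (U.comap π).subtype (by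
    rw [Subgroup.commutator_le]
    intro r hr f _
    show (⁅(r : F), (f : F)⁆ : F) ∈ hopfC π
    apply Subgroup.commutator_mem_commutator _ (mem_top _)
    exact congrArg Subtype.val hr)

@[simp] theorem iotaN_mk (x : ↥(U.comap π)) :
    iotaN π U (x : HopfN (piU π U)) = ((x : F) : HopfN π) := rfl

theorem hopfP_iotaN (x : HopfN (piU π U)) :
    hopfP π (iotaN π U x) = (hopfP (piU π U) x : T) := by
  obtain ⟨y, rfl⟩ := QuotientGroup.mk_surjective x
  rfl

theorem iotaN_mem_hopfM {x : HopfN (piU π U)} (hx : x ∈ hopfM (piU π U)) :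
    iotaN π U x ∈ hopfM π := by
  rw [hopfM, Subgroup.mem_inf] at hx ⊢
  constructor
  · rw [MonoidHom.mem_ker, hopfP_iotaN]
    have : hopfP (piU π U) x = 1 := hx.1
    rw [this]
    rfl
  · exact map_commutator_le _ (Subgroup.mem_map_of_mem _ hx.2)

private theorem map_prod_const {ι A B : Type*} [CommMonoid A] [Monoid B] (c : A →* B) (s : Finset ι)
    (f : ι → A) (b : B) (h : ∀ i ∈ s, c (f i) = b) : c (∏ i ∈ s, f i) = b ^ s.card := by
  classical
  induction s using Finset.induction_on with
  | empty => simp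
  | insert a s ha ih =>
    rw [Finset.prod_insert ha, map_mul, h a (Finset.mem_insert_self a s),
      ih (fun i hi => h i (Finset.mem_insert_of_mem hi)), Finset.card_insert_of_notMem ha, pow_succ']

/-- The composite with inclusion is the power map. -/
theorem iotaN_tau (r : π.ker) :
    iotaN π U ((tau π U r : center (HopfN (piU π U))) : HopfN (piU π U))
      = ((r : F) : HopfN π) ^ (U.comap π).index := by
  let c : center (HopfN (piU π U)) →* HopfN π :=
    (iotaN π U).comp (center (HopfN (piU π U))).subtype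
  show c (tau π U r) = _
  have h0 : tau π U r = ∏ q : F ⧸ U.comap π, cl π U (conjKer π (rep π U q) r) := rfl
  rw [h0, map_prod_const c Finset.univ _ ((r : F) : HopfN π)]
  · congr 1
    rw [Subgroup.index_eq_card, Nat.card_eq_fintype_card, Finset.card_univ]
  · intro q _
    show (((rep π U q)⁻¹ * (r : F) * rep π U q : F) : HopfN π) = _
    have hc : ((r : F) : HopfN π) ∈ center (HopfN π) := by
      apply ker_hopfP_le_center
      exact r.2
    rw [QuotientGroup.mk_mul, QuotientGroup.mk_mul, QuotientGroup.mk_inv]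
    have := mem_center_iff.1 hc ((rep π U q : F) : HopfN π)
    rw [mul_assoc, ← this, ← mul_assoc, inv_mul_cancel, one_mul]

/-- The pair of homomorphisms between the `hopfM`'s. -/
theorem exists_pair_hopfM (hπ : Function.Surjective π) :
    ∃ (θ : hopfM π →* hopfM (piU π U)) (ι : hopfM (piU π U) →* hopfM π),
      ∀ x, ι (θ x) = x ^ (U.comap π).index := by
  let R₁ : Subgroup F := π.ker ⊓ commutator F
  have hR₁ : R₁ ≤ π.ker := inf_le_left
  let ρ : R₁ →* hopfM π := ((QuotientGroup.mk' (hopfC π)).comp R₁.subtype).codRestrict _ (by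
    intro r
    have hr := Subgroup.mem_inf.1 r.2
    rw [hopfM, Subgroup.mem_inf]
    exact ⟨hr.1, map_commutator_le (QuotientGroup.mk' (hopfC π)) (Subgroup.mem_map_of_mem _ hr.2)⟩)
  have hρ : Function.Surjective ρ := by
    rintro ⟨x, hx⟩
    obtain ⟨r, rfl⟩ := QuotientGroup.mk_surjective x
    rw [hopfM, Subgroup.mem_inf, ← ker_hopfQ] at hx
    have h1 : r ∈ (Abelianization.of (G := F)).ker := hx.2
    rw [Abelianization.ker_of] at h1
    exact ⟨⟨r, Subgroup.mem_inf.2 ⟨hx.1, h1⟩⟩, rfl⟩
  let t₁ : R₁ →* hopfM (piU π U) :=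
    (((center (HopfN (piU π U))).subtype).comp ((tau π U).comp (Subgroup.inclusion hR₁))).codRestrict _
      (fun r => tau_mem_hopfM π U _ (Subgroup.mem_inf.1 r.2).2)
  have hle : ρ.ker ≤ t₁.ker := by
    rintro ⟨r, hr⟩ h
    rw [MonoidHom.mem_ker]
    have h1 : (r : HopfN π) = 1 := congrArg Subtype.val h
    have h2 : r ∈ hopfC π := (QuotientGroup.eq_one_iff r).1 h1
    have h3 := tau_of_mem_hopfC π U r h2 (hR₁ hr)
    apply Subtype.ext
    show (((tau π U ⟨r, hR₁ hr⟩ : center (HopfN (piU π U)))) : HopfN (piU π U)) = 1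
    rw [h3]
    rfl
  let θ := ρ.liftOfSurjective hρ ⟨t₁, hle⟩
  have hθ : ∀ r, θ (ρ r) = t₁ r := fun r =>
    MonoidHom.liftOfRightInverse_comp_apply _ _ _ _ r
  let ι : hopfM (piU π U) →* hopfM π :=
    ((iotaN π U).comp (hopfM (piU π U)).subtype).codRestrict _ (fun x => iotaN_mem_hopfM π U x.2)
  refine ⟨θ, ι, ?_⟩
  intro x
  obtain ⟨r, rfl⟩ := hρ x
  rw [hθ]
  apply Subtype.ext
  exact iotaN_tau π U ⟨r, hR₁ r.2⟩

end

/-- The transfer pair between multipliers of a group and a subgroup. -/
theorem exists_transfer_pair {G : Type u} [Group G] [Finite G] (U : Subgroup G) {A B : Type*}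
    [CommGroup A] [CommGroup B] (hA : HasSchurMultiplier G A) (hB : HasSchurMultiplier U B) :
    ∃ (θ : A →* B) (ι : B →* A), ∀ a, ι (θ a) = a ^ U.index := by
  let π := freePres G
  have hπ : Function.Surjective π := freePres_surjective G
  have hidx : (U.comap π).index = U.index := Subgroup.index_comap_of_surjective U hπ
  have : (U.comap π).FiniteIndex := ⟨by
    rw [hidx]
    exact Subgroup.index_ne_zero_of_finite⟩
  have hπU : Function.Surjective (piU π U) :=
    MonoidHom.subgroupComap_surjective_of_surjective π U hπ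
  have : Finite U := inferInstance
  obtain ⟨eA⟩ := nonempty_equiv_of_hasSchur hπ hA
  obtain ⟨eB⟩ := nonempty_equiv_of_hasSchur hπU hB
  obtain ⟨θ, ι, h⟩ := exists_pair_hopfM π U hπ
  refine ⟨eB.symm.toMonoidHom.comp (θ.comp eA.toMonoidHom),
    eA.symm.toMonoidHom.comp (ι.comp eB.toMonoidHom), ?_⟩
  intro a
  simp only [MonoidHom.comp_apply, MulEquiv.coe_toMonoidHom, MulEquiv.apply_symm_apply, h, map_pow,
    MulEquiv.symm_apply_apply, hidx]

/-- A surjection of finite abelian groups gives an embedding in the opposite direction. -/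
theorem exists_injective_of_surjective {X Y : Type*} [CommGroup X] [CommGroup Y] [Finite X]
    (f : X →* Y) (hf : Function.Surjective f) : ∃ g : Y →* X, Function.Injective g := by
  have : Finite Y := Finite.of_surjective f hf
  obtain ⟨eX⟩ := CommGroup.monoidHom_mulEquiv_of_hasEnoughRootsOfUnity X ℂ
  obtain ⟨eY⟩ := CommGroup.monoidHom_mulEquiv_of_hasEnoughRootsOfUnity Y ℂ
  let pre : (Y →* ℂˣ) →* (X →* ℂˣ) :=
    { toFun := fun χ => χ.comp f
      map_one' := rfl
      map_mul' := fun _ _ => rfl }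
  have hpre : Function.Injective pre := by
    intro χ₁ χ₂ h
    ext y
    obtain ⟨x, rfl⟩ := hf y
    have := congrArg (fun χ => (χ x : ℂˣ)) h
    exact congrArg Units.val this
  refine ⟨eX.toMonoidHom.comp (pre.comp eY.symm.toMonoidHom), ?_⟩
  exact eX.injective.comp (hpre.comp eY.symm.injective)

end Cfsg.Agent.Lib.Schur.Transfer
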